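/-
Monomial affine permutations of `(M × ZMod p) ⊕ R`: the wreath product used to build Sylow subgroups of symmetric and
alternating groups.
-/
import Mathlib

set_option autoImplicit false
set_option linter.unusedSectionVars false
set_option linter.unusedVariables false
set_option linter.unusedSimpArgs false
set_option linter.style.haveILetI false

namespace Cfsg.Agent.Lib.Fusion.AltF

open Equiv Equiv.Perm

section Mon

variable {M R : Type*} {p : ℕ}

/-- The point set. -/
abbrev Pts (M R : Type*) (p : ℕ) := (M × ZMod p) ⊕ R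

/-- The monomial affine permutation `(i, t) ↦ (σ i, a i * t + f i)`. -/
def mon (σ : Perm M) (a : M → (ZMod p)ˣ) (f : M → ZMod p) : Perm (Pts M R p) where
  toFun := Sum.elim (fun x => Sum.inl (σ x.1, (a x.1 : ZMod p) * x.2 + f x.1)) Sum.inr
  invFun := Sum.elim (fun x => Sum.inl (σ⁻¹ x.1, (((a (σ⁻¹ x.1))⁻¹ : (ZMod p)ˣ) : ZMod p) * (x.2 - f (σ⁻¹ x.1)))) Sum.inr
  left_inv := by
    rintro (⟨i, t⟩ | r)
    · simp
    · rfl
  right_inv := by
    rintro (⟨i, t⟩ | r)
    · simp
    · rfl

@[simp] theorem mon_inl (σ : Perm M) (a : M → (ZMod p)ˣ) (f : M → ZMod p) (i : M) (t : ZMod p) :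
    (mon σ a f : Perm (Pts M R p)) (Sum.inl (i, t)) = Sum.inl (σ i, (a i : ZMod p) * t + f i) := rfl

@[simp] theorem mon_inr (σ : Perm M) (a : M → (ZMod p)ˣ) (f : M → ZMod p) (r : R) :
    (mon σ a f : Perm (Pts M R p)) (Sum.inr r) = Sum.inr r := rfl

theorem mon_ext {y z : Perm (Pts M R p)} (h1 : ∀ i t, y (Sum.inl (i, t)) = z (Sum.inl (i, t)))
    (h2 : ∀ r, y (Sum.inr r) = z (Sum.inr r)) : y = z := by
  ext1 x
  rcases x with ⟨i, t⟩ | r
  · exact h1 i t
  · exact h2 r

theorem mon_mul (σ σ' : Perm M) (a a' : M → (ZMod p)ˣ) (f f' : M → ZMod p) :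
    (mon σ a f * mon σ' a' f' : Perm (Pts M R p)) =
      mon (σ * σ') (fun i => a (σ' i) * a' i) (fun i => (a (σ' i) : ZMod p) * f' i + f (σ' i)) := by
  refine mon_ext (fun i t => ?_) (fun r => rfl)
  simp only [Perm.mul_apply, mon_inl, Units.val_mul]
  congr 2
  ring

theorem mon_congr {σ σ' : Perm M} {a a' : M → (ZMod p)ˣ} {f f' : M → ZMod p} (hσ : σ = σ') (ha : ∀ i, a i = a' i)
    (hf : ∀ i, f i = f' i) : (mon σ a f : Perm (Pts M R p)) = mon σ' a' f' := by
  subst hσ
  obtain rfl : a = a' := funext ha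
  obtain rfl : f = f' := funext hf
  rfl

theorem mon_one : (mon 1 1 0 : Perm (Pts M R p)) = 1 := by
  refine mon_ext (fun i t => ?_) (fun r => rfl)
  simp

theorem mon_inv_t (w : Perm M) (f : M → ZMod p) :
    (mon w 1 f : Perm (Pts M R p))⁻¹ = mon w⁻¹ 1 (fun i => -f (w⁻¹ i)) := by
  apply inv_eq_of_mul_eq_one_right
  rw [mon_mul]
  rw [← mon_one]
  exact mon_congr (by simp) (fun i => by simp) (fun i => by simp)

theorem mon_inj [Nontrivial (ZMod p)] {σ σ' : Perm M} {a a' : M → (ZMod p)ˣ} {f f' : M → ZMod p}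
    (h : (mon σ a f : Perm (Pts M R p)) = mon σ' a' f') : σ = σ' ∧ a = a' ∧ f = f' := by
  have h0 : ∀ i t, (Sum.inl (σ i, (a i : ZMod p) * t + f i) : Pts M R p) = Sum.inl (σ' i, (a' i : ZMod p) * t + f' i) := by
    intro i t
    have := congrArg (fun y : Perm (Pts M R p) => y (Sum.inl (i, t))) h
    simpa using this
  have h1 : ∀ i t, σ i = σ' i ∧ (a i : ZMod p) * t + f i = (a' i : ZMod p) * t + f' i := by
    intro i t
    have := h0 i t
    simpa using this
  refine ⟨?_, ?_, ?_⟩
  · ext i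
    rw [(h1 i 0).1]
  · ext i
    have e0 := (h1 i 0).2
    have e1 := (h1 i 1).2
    simp only [mul_zero, zero_add, mul_one] at e0 e1
    rw [e0] at e1
    exact add_right_cancel e1
  · ext i
    have e0 := (h1 i 0).2
    simpa using e0

/-- Translations in the blocks. -/
abbrev bb (f : M → ZMod p) : Perm (Pts M R p) := mon 1 1 f

/-- Permuting the blocks. -/
abbrev tt (σ : Perm M) : Perm (Pts M R p) := mon σ 1 0

/-- Scaling in the blocks. -/
abbrev dd (a : M → (ZMod p)ˣ) : Perm (Pts M R p) := mon 1 a 0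

theorem bb_add (f g : M → ZMod p) : (bb (f + g) : Perm (Pts M R p)) = bb f * bb g := by
  rw [bb, bb, bb, mon_mul]
  exact mon_congr (by simp) (fun i => by simp) (fun i => by simp [add_comm])

theorem bb_zero : (bb 0 : Perm (Pts M R p)) = 1 := mon_one

theorem bb_neg (f : M → ZMod p) : (bb (-f) : Perm (Pts M R p)) = (bb f)⁻¹ := by
  apply eq_inv_of_mul_eq_one_left
  rw [← bb_add]
  simp [bb_zero]

theorem bb_sub (f g : M → ZMod p) : (bb (f - g) : Perm (Pts M R p)) = bb f * (bb g)⁻¹ := by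
  rw [sub_eq_add_neg, bb_add, bb_neg]

theorem bb_nsmul (f : M → ZMod p) (n : ℕ) : (bb (n • f) : Perm (Pts M R p)) = (bb f) ^ n := by
  induction n with
  | zero => simp [bb_zero]
  | succ n ih => rw [succ_nsmul, bb_add, ih, pow_succ]

theorem bb_pow_p (f : M → ZMod p) : (bb f : Perm (Pts M R p)) ^ p = 1 := by
  rw [← bb_nsmul]
  have : p • f = 0 := by
    ext i
    simp
  rw [this, bb_zero]

theorem tt_mul (σ σ' : Perm M) : (tt (σ * σ') : Perm (Pts M R p)) = tt σ * tt σ' := by
  rw [tt, tt, tt, mon_mul]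
  exact mon_congr rfl (fun i => by simp) (fun i => by simp)

theorem tt_one : (tt 1 : Perm (Pts M R p)) = 1 := mon_one

/-- `tt` as a homomorphism. -/
def ttHom : Perm M →* Perm (Pts M R p) where
  toFun := tt
  map_one' := tt_one
  map_mul' := tt_mul

@[simp] theorem ttHom_apply (σ : Perm M) : (ttHom σ : Perm (Pts M R p)) = tt σ := rfl

theorem tt_inj [Nontrivial (ZMod p)] {σ σ' : Perm M} (h : (tt σ : Perm (Pts M R p)) = tt σ') : σ = σ' :=
  (mon_inj h).1

theorem dd_mul (a a' : M → (ZMod p)ˣ) : (dd (a * a') : Perm (Pts M R p)) = dd a * dd a' := by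
  rw [dd, dd, dd, mon_mul]
  exact mon_congr (by simp) (fun i => by simp) (fun i => by simp)

theorem dd_one : (dd 1 : Perm (Pts M R p)) = 1 := mon_one

/-- `dd` as a homomorphism. -/
def ddHom : (M → (ZMod p)ˣ) →* Perm (Pts M R p) where
  toFun := dd
  map_one' := dd_one
  map_mul' := dd_mul

@[simp] theorem ddHom_apply (a : M → (ZMod p)ˣ) : (ddHom a : Perm (Pts M R p)) = dd a := rfl

theorem mon_decomp (σ : Perm M) (a : M → (ZMod p)ˣ) (f : M → ZMod p) :
    (mon σ a f : Perm (Pts M R p)) = tt σ * dd a * bb (fun i => (((a i)⁻¹ : (ZMod p)ˣ) : ZMod p) * f i) := by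
  rw [tt, dd, bb, mon_mul, mon_mul]
  exact mon_congr (by simp) (fun i => by simp) (fun i => by simp)

theorem mon_eq_bb_mul (w : Perm M) (f : M → ZMod p) : (mon w 1 f : Perm (Pts M R p)) = bb (fun i => f (w⁻¹ i)) * tt w := by
  rw [bb, tt, mon_mul]
  exact mon_congr (by simp) (fun i => by simp) (fun i => by simp)

theorem mon_eq_tt_mul (w : Perm M) (f : M → ZMod p) : (mon w 1 f : Perm (Pts M R p)) = tt w * bb f := by
  rw [bb, tt, mon_mul]
  exact mon_congr (by simp) (fun i => by simp) (fun i => by simp)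

/-- The iterated wreath product step. -/
def wr (W : Subgroup (Perm M)) : Subgroup (Perm (Pts M R p)) where
  carrier := {y | ∃ w ∈ W, ∃ f, y = mon w 1 f}
  mul_mem' := by
    rintro _ _ ⟨w, hw, f, rfl⟩ ⟨w', hw', f', rfl⟩
    refine ⟨w * w', W.mul_mem hw hw', fun i => (1 : ZMod p) * f' i + f (w' i), ?_⟩
    rw [mon_mul]
    exact mon_congr rfl (fun i => by simp) (fun i => by simp)
  one_mem' := ⟨1, W.one_mem, 0, mon_one.symm⟩
  inv_mem' := by
    rintro _ ⟨w, hw, f, rfl⟩
    exact ⟨w⁻¹, W.inv_mem hw, _, mon_inv_t w f⟩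

theorem mem_wr {W : Subgroup (Perm M)} {y : Perm (Pts M R p)} : y ∈ wr W ↔ ∃ w ∈ W, ∃ f, y = mon w 1 f := Iff.rfl

theorem mon_mem_wr {W : Subgroup (Perm M)} {w : Perm M} (hw : w ∈ W) (f : M → ZMod p) :
    (mon w 1 f : Perm (Pts M R p)) ∈ wr W := ⟨w, hw, f, rfl⟩

theorem mon_mem_wr_iff [Nontrivial (ZMod p)] {W : Subgroup (Perm M)} {w : Perm M} {f : M → ZMod p} :
    (mon w 1 f : Perm (Pts M R p)) ∈ wr W ↔ w ∈ W := by
  constructor
  · rintro ⟨w', hw', f', h⟩
    rw [(mon_inj h).1]
    exact hw'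
  · intro h
    exact mon_mem_wr h f

theorem bb_mem_wr (W : Subgroup (Perm M)) (f : M → ZMod p) : (bb f : Perm (Pts M R p)) ∈ wr W :=
  mon_mem_wr W.one_mem f

theorem tt_mem_wr {W : Subgroup (Perm M)} {w : Perm M} (hw : w ∈ W) : (tt w : Perm (Pts M R p)) ∈ wr W :=
  mon_mem_wr hw 0

/-- `wr W` has the right cardinality. -/
theorem card_wr [Fintype M] [NeZero p] [Nontrivial (ZMod p)] (W : Subgroup (Perm M)) :
    Nat.card (wr W : Subgroup (Perm (Pts M R p))) = p ^ Fintype.card M * Nat.card W := by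
  let φ : W × (M → ZMod p) → (wr W : Subgroup (Perm (Pts M R p))) := fun x => ⟨mon x.1.1 1 x.2, mon_mem_wr x.1.2 x.2⟩
  have hφ : Function.Bijective φ := by
    constructor
    · rintro ⟨⟨w, hw⟩, f⟩ ⟨⟨w', hw'⟩, f'⟩ h
      have h1 := congrArg Subtype.val h
      obtain ⟨e1, -, e3⟩ := mon_inj h1
      subst e1
      subst e3
      rfl
    · rintro ⟨_, w, hw, f, rfl⟩
      exact ⟨(⟨w, hw⟩, f), rfl⟩
  rw [← Nat.card_congr (Equiv.ofBijective φ hφ), Nat.card_prod, mul_comm]
  congr 1
  rw [Nat.card_fun, Nat.card_zmod, Nat.card_eq_fintype_card]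

end Mon

section Sign

variable {M R : Type*} [Fintype M] [DecidableEq M] [Fintype R] [DecidableEq R] {p : ℕ} [NeZero p]

/-- The affine map of `ZMod p`. -/
def affP (a : (ZMod p)ˣ) (c : ZMod p) : Perm (ZMod p) where
  toFun t := (a : ZMod p) * t + c
  invFun t := ((a⁻¹ : (ZMod p)ˣ) : ZMod p) * (t - c)
  left_inv t := by simp
  right_inv t := by simp

theorem affP_apply (a : (ZMod p)ˣ) (c t : ZMod p) : affP a c t = (a : ZMod p) * t + c := rfl

theorem sign_fiber (a : M → (ZMod p)ˣ) (f : M → ZMod p) :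
    sign (mon 1 a f : Perm (Pts M R p)) = ∏ i, sign (affP (a i) (f i)) := by
  have e : (mon 1 a f : Perm (Pts M R p)) = Equiv.Perm.sumCongr (Equiv.prodCongrRight (fun i => affP (a i) (f i))) 1 := by
    refine mon_ext (fun i t => ?_) (fun r => rfl)
    simp [affP_apply]
  rw [e, sign_sumCongr, sign_prodCongrRight, map_one, mul_one]

theorem sign_tt (σ : Perm M) : sign (tt σ : Perm (Pts M R p)) = sign σ ^ p := by
  have e : (tt σ : Perm (Pts M R p)) = Equiv.Perm.sumCongr
      ((Equiv.prodComm (ZMod p) M).permCongr (Equiv.prodCongrRight (fun _ : ZMod p => σ))) 1 := by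
    refine mon_ext (fun i t => ?_) (fun r => rfl)
    simp
  rw [e, sign_sumCongr, sign_permCongr, sign_prodCongrRight, map_one, mul_one, Finset.prod_const, Finset.card_univ, ZMod.card]

theorem sign_mon (σ : Perm M) (a : M → (ZMod p)ˣ) (f : M → ZMod p) :
    sign (mon σ a f : Perm (Pts M R p)) = sign σ ^ p * ∏ i, sign (affP (a i) (f i)) := by
  have e : (mon σ a f : Perm (Pts M R p)) = tt σ * mon 1 a f := by
    rw [tt, mon_mul]
    exact mon_congr (by simp) (fun i => by simp) (fun i => by simp)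
  rw [e, map_mul, sign_tt, sign_fiber]

end Sign

section Conj

variable {X : Type*} [Fintype X] [DecidableEq X] {p : ℕ} [hp : Fact p.Prime]

/-- The cycle type of an element killed by the prime `p`. -/
theorem cycleType_of_pow {x : Perm X} (hx : x ^ p = 1) :
    x.cycleType = Multiset.replicate (x.support.card / p) p := by
  have hpp := hp.out
  have hall : ∀ c ∈ x.cycleType, c = p := by
    intro c hc
    have h1 : c ∣ p := (dvd_of_mem_cycleType hc).trans (orderOf_dvd_of_pow_eq_one hx)
    rcases (Nat.dvd_prime hpp).1 h1 with h | h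
    · exact absurd h (one_lt_of_mem_cycleType hc).ne'
    · exact h
  have h2 := Multiset.eq_replicate_card.2 hall
  have h3 : x.cycleType.sum = x.support.card := sum_cycleType x
  have h4 : Multiset.card x.cycleType * p = x.support.card := by
    rw [← h3]
    conv_rhs => rw [h2]
    simp [Multiset.sum_replicate, mul_comm]
  have h5 : x.support.card / p = Multiset.card x.cycleType := by
    rw [← h4]
    exact Nat.mul_div_cancel _ hpp.pos
  rw [h5]
  exact h2

theorem dvd_card_support {x : Perm X} (hx : x ^ p = 1) : p ∣ x.support.card := by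
  have h3 : x.cycleType.sum = x.support.card := sum_cycleType x
  rw [← h3, cycleType_of_pow hx]
  simp

theorem not_centralizer_le {y : Perm X} (hy : y ^ p = 1) (hy1 : y ≠ 1) (hX : p + 2 ≤ Fintype.card X) :
    ¬ Subgroup.centralizer {y} ≤ alternatingGroup X := by
  have hpp := hp.out
  intro h
  obtain ⟨h1, h2, h3⟩ := centralizer_le_alternating_iff.1 h
  have hct := cycleType_of_pow hy
  have hne : y.support.card ≠ 0 := by
    intro h0
    exact hy1 (Equiv.Perm.support_eq_empty_iff.1 (Finset.card_eq_zero.1 h0))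
  obtain ⟨k, hk⟩ := dvd_card_support hy
  have hk0 : k ≠ 0 := by
    rintro rfl
    exact hne (by simpa using hk)
  have e1 : y.support.card / p = k := by
    rw [hk]
    exact Nat.mul_div_cancel_left _ hpp.pos
  rw [e1] at hct
  have hmem : p ∈ y.cycleType := by
    rw [hct]
    exact Multiset.mem_replicate.2 ⟨hk0, rfl⟩
  have hodd := h1 p hmem
  have hcount := h3 p
  rw [hct, Multiset.count_replicate_self] at hcount
  have hk1 : k = 1 := by omega
  have hsum : y.cycleType.sum = p := by
    rw [sum_cycleType, hk, hk1, mul_one]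
  rw [hsum] at h2
  omega

/-- Conjugacy in the alternating group of elements killed by `p` with supports of the same size. -/
theorem exists_alt_conj {x y : Perm X} (hx : x ^ p = 1) (hy : y ^ p = 1) (hy1 : y ≠ 1) (hs : x.support.card = y.support.card)
    (hX : p + 2 ≤ Fintype.card X) : ∃ h ∈ alternatingGroup X, h * y * h⁻¹ = x := by
  have hpp := hp.out
  have hct : y.cycleType = x.cycleType := by
    rw [cycleType_of_pow hx, cycleType_of_pow hy, hs]
  obtain ⟨g, hg⟩ := isConj_iff.1 (isConj_iff_cycleType_eq.2 hct)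
  by_cases hgA : g ∈ alternatingGroup X
  · exact ⟨g, hgA, hg⟩
  obtain ⟨c, hc, hcA⟩ := SetLike.not_le_iff_exists.1 (not_centralizer_le hy hy1 hX)
  refine ⟨g * c, ?_, ?_⟩
  · rw [mem_alternatingGroup] at hgA hcA ⊢
    rw [map_mul]
    rcases Int.units_eq_one_or (sign g) with h | h
    · exact absurd h hgA
    · rcases Int.units_eq_one_or (sign c) with h' | h'
      · exact absurd h' hcA
      · rw [h, h']
        rfl
  · have h1 : c * y = y * c := by
      have := Subgroup.mem_centralizer_singleton_iff.1 hc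
      exact this.symm ▸ rfl
    calc g * c * y * (g * c)⁻¹ = g * (c * y) * c⁻¹ * g⁻¹ := by group
      _ = g * (y * c) * c⁻¹ * g⁻¹ := by rw [h1]
      _ = g * y * g⁻¹ := by group
      _ = x := hg

/-- An element killed by `p` in a `p`-group of odd order is even. -/
theorem sign_of_pow (hp2 : p ≠ 2) {x : Perm X} (hx : x ^ p = 1) : sign x = 1 := by
  have hpp := hp.out
  have hodd : Odd p := hpp.odd_of_ne_two hp2
  have h1 : sign x ^ p = 1 := by
    rw [← map_pow, hx, map_one]
  rcases Int.units_eq_one_or (sign x) with h | h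
  · exact h
  · rw [h, hodd.neg_one_pow] at h1
    exact absurd h1 (by decide)

end Conj

end Cfsg.Agent.Lib.Fusion.AltF
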