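/-
Sylow subgroups of symmetric groups as iterated wreath products: existence, order, generation by elements of order `p`
and, for `p = 2`, self-normalization.
-/
import Cfsg.Agent.Lib.Fusion.AltF1

set_option autoImplicit false
set_option linter.unusedSectionVars false
set_option linter.unusedVariables false
set_option linter.unusedSimpArgs false
set_option linter.style.haveILetI false

namespace Cfsg.Agent.Lib.Fusion.AltF

open Equiv Equiv.Perm

section Supp

variable {M R : Type*} [Fintype M] [DecidableEq M] [Fintype R] [DecidableEq R] {p : ℕ} [hp : Fact p.Prime]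

theorem nontrivial_zmod : Nontrivial (ZMod p) := ZMod.nontrivial_iff.2 hp.out.one_lt.ne'

instance : Nontrivial (ZMod p) := nontrivial_zmod

/-- The translation of the block `i`. -/
abbrev cc (i : M) : Perm (Pts M R p) := bb (Pi.single i 1)

theorem support_bb (f : M → ZMod p) :
    (bb f : Perm (Pts M R p)).support = Finset.image (fun x => (Sum.inl x : Pts M R p)) ((Finset.univ.filter (fun i => f i ≠ 0)) ×ˢ Finset.univ) := by
  ext x
  rcases x with ⟨i, t⟩ | r
  · simp [Equiv.Perm.mem_support]
  · simp [Equiv.Perm.mem_support]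

theorem card_support_bb (f : M → ZMod p) :
    (bb f : Perm (Pts M R p)).support.card = p * (Finset.univ.filter (fun i => f i ≠ 0)).card := by
  rw [support_bb, Finset.card_image_of_injective _ Sum.inl_injective, Finset.card_product, Finset.card_univ, ZMod.card, mul_comm]

theorem card_support_cc (i : M) : (cc i : Perm (Pts M R p)).support.card = p := by
  rw [card_support_bb]
  have : (Finset.univ.filter (fun j => (Pi.single i (1 : ZMod p) : M → ZMod p) j ≠ 0)) = {i} := by
    ext j
    by_cases h : j = i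
    · subst h
      simp
    · simp [h]
  rw [this]
  simp

theorem two_mul_le_support {w : Perm M} (hw : w ≠ 1) (f : M → ZMod p) :
    2 * p ≤ (mon w 1 f : Perm (Pts M R p)).support.card := by
  obtain ⟨i, hi⟩ : ∃ i, w i ≠ i := by
    by_contra h
    push Not at h
    exact hw (Equiv.ext h)
  have hsub : Finset.image (fun x => (Sum.inl x : Pts M R p)) (({i, w i} : Finset M) ×ˢ (Finset.univ : Finset (ZMod p))) ⊆
      (mon w 1 f : Perm (Pts M R p)).support := by
    intro x hx
    obtain ⟨⟨l, t⟩, hl, rfl⟩ := Finset.mem_image.1 hx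
    have hl1 : l = i ∨ l = w i := by simpa using (Finset.mem_product.1 hl).1
    rw [Equiv.Perm.mem_support, mon_inl]
    intro h
    have h2 := congrArg (fun z : Pts M R p => Sum.elim (fun q : M × ZMod p => q.1) (fun _ => i) z) h
    have h3 : w l = l := h2
    rcases hl1 with rfl | rfl
    · exact hi h3
    · exact hi (w.injective h3)
  have hc := Finset.card_le_card hsub
  rw [Finset.card_image_of_injective _ Sum.inl_injective, Finset.card_product, Finset.card_univ, ZMod.card,
    Finset.card_pair hi.symm] at hc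
  exact hc

/-- An element of `wr W` with support of size `p` is a translation of a single block. -/
theorem eq_single_of_support {w : Perm M} {f : M → ZMod p}
    (h : (mon w 1 f : Perm (Pts M R p)).support.card = p) : ∃ j, ∃ l : (ZMod p)ˣ, (mon w 1 f : Perm (Pts M R p)) = bb (Pi.single j (l : ZMod p)) := by
  have hpp := hp.out
  have hw : w = 1 := by
    by_contra hw
    have := two_mul_le_support (R := R) (p := p) hw f
    have := hpp.pos
    omega
  subst hw
  have h1 := card_support_bb (R := R) f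
  rw [bb, h] at h1
  have h2 : (Finset.univ.filter (fun i => f i ≠ 0)).card = 1 := by
    have : p * 1 = p * (Finset.univ.filter (fun i => f i ≠ 0)).card := by
      rw [mul_one]
      exact h1
    exact (Nat.eq_of_mul_eq_mul_left hpp.pos this).symm
  obtain ⟨j, hj⟩ := Finset.card_eq_one.1 h2
  have hjm : f j ≠ 0 := by
    have : j ∈ (Finset.univ.filter (fun i => f i ≠ 0)) := by
      rw [hj]
      exact Finset.mem_singleton_self j
    simpa using this
  have hfj : ∀ i, i ≠ j → f i = 0 := by
    intro i hi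
    by_contra h3
    have : i ∈ (Finset.univ.filter (fun i => f i ≠ 0)) := by simpa using h3
    rw [hj] at this
    exact hi (Finset.mem_singleton.1 this)
  haveI : Fact p.Prime := hp
  refine ⟨j, Units.mk0 (f j) hjm, ?_⟩
  refine mon_congr rfl (fun i => rfl) (fun i => ?_)
  by_cases hij : i = j
  · subst hij
    simp
  · rw [hfj i hij, Pi.single_eq_of_ne hij]

/-- The normal form of a permutation normalizing the group of block translations. -/
theorem normal_form [Subsingleton R] {y : Perm (Pts M R p)}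
    (h : ∀ i, ∃ j, ∃ l : (ZMod p)ˣ, y * cc i * y⁻¹ = bb (Pi.single j (l : ZMod p))) :
    ∃ σ a f, y = mon σ a f := by
  choose j l hjl using h
  have hcc : ∀ (i : M) (t : ZMod p), (cc i : Perm (Pts M R p)) (Sum.inl (i, t)) = Sum.inl (i, t + 1) := by
    intro i t
    simp [cc]
  have key : ∀ i (z : Pts M R p), y (cc i z) = (bb (Pi.single (j i) (l i : ZMod p)) : Perm (Pts M R p)) (y z) := by
    intro i z
    rw [← hjl i]
    simp
  have h1 : ∀ i, ∃ s, y (Sum.inl (i, 0)) = Sum.inl (j i, s) := by
    intro i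
    have hne : (bb (Pi.single (j i) (l i : ZMod p)) : Perm (Pts M R p)) (y (Sum.inl (i, 0))) ≠ y (Sum.inl (i, 0)) := by
      rw [← key, hcc]
      intro h
      have := y.injective h
      simp at this
    rcases hz : y (Sum.inl (i, 0)) with ⟨i', s⟩ | r
    · rw [hz] at hne
      by_cases hi' : i' = j i
      · subst hi'
        exact ⟨s, rfl⟩
      · exfalso
        apply hne
        simp [Pi.single_eq_of_ne hi']
    · rw [hz] at hne
      exact absurd rfl hne
  choose s hs using h1
  have h2 : ∀ i (n : ℕ), y (Sum.inl (i, (n : ZMod p))) = Sum.inl (j i, (l i : ZMod p) * n + s i) := by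
    intro i n
    induction n with
    | zero => simp [hs]
    | succ n ih =>
      have e1 : (Sum.inl (i, ((n + 1 : ℕ) : ZMod p)) : Pts M R p) = cc i (Sum.inl (i, (n : ZMod p))) := by
        rw [hcc]
        simp
      rw [e1, key, ih]
      simp
      ring
  have h3 : ∀ i t, y (Sum.inl (i, t)) = Sum.inl (j i, (l i : ZMod p) * t + s i) := by
    intro i t
    have := h2 i t.val
    rwa [ZMod.natCast_zmod_val] at this
  have hinj : Function.Injective j := by
    intro i i' hii
    have e : y (Sum.inl (i', ((l i')⁻¹ : (ZMod p)ˣ) * (s i - s i'))) = y (Sum.inl (i, 0)) := by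
      rw [h3, hs, hii, Units.mul_inv_cancel_left, sub_add_cancel]
    have := y.injective e
    simp only [Sum.inl.injEq, Prod.mk.injEq] at this
    exact this.1.symm
  have hbij : Function.Bijective j := Finite.injective_iff_bijective.1 hinj
  have h4 : ∀ r, y (Sum.inr r) = Sum.inr r := by
    intro r
    rcases hz : y (Sum.inr r) with ⟨i', t⟩ | r'
    · exfalso
      obtain ⟨i, rfl⟩ := hbij.2 i'
      have e : y (Sum.inl (i, ((l i)⁻¹ : (ZMod p)ˣ) * (t - s i))) = y (Sum.inr r) := by
        rw [h3, hz, Units.mul_inv_cancel_left, sub_add_cancel]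
      exact Sum.inl_ne_inr (y.injective e)
    · rw [Subsingleton.elim r r']
  refine ⟨Equiv.ofBijective j hbij, l, s, mon_ext (fun i t => ?_) (fun r => ?_)⟩
  · rw [h3]
    rfl
  · rw [h4]
    rfl

end Supp

section Two

variable {M R : Type*} [Fintype M] [DecidableEq M] [Fintype R] [DecidableEq R] [Subsingleton R]

theorem cc_eq_swap (i : M) : (cc i : Perm (Pts M R 2)) = swap (Sum.inl (i, 0)) (Sum.inl (i, 1)) := by
  refine mon_ext (fun l t => ?_) (fun r => ?_)
  · by_cases h : l = i
    · subst h
      have : t = 0 ∨ t = 1 := by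
        revert t
        decide
      rcases this with rfl | rfl
      · simp
      · simp only [mon_inl, Pi.single_eq_same]
        rw [swap_apply_right]
        simp
        decide
    · rw [swap_apply_of_ne_of_ne]
      · simp [Pi.single_eq_of_ne h]
      · simp [h]
      · simp [h]
  · symm
    apply swap_apply_of_ne_of_ne <;> simp

/-- The only transpositions normalizing a `2`-group with enough elements are the block transpositions. -/
theorem swap_eq_cc {Q : Subgroup (Perm (Pts M R 2))} (h2 : ∀ x ∈ Q, ∃ k : ℕ, x ^ 2 ^ k = 1)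
    (hx : ∀ i s (v : Pts M R 2), (∀ s', v ≠ Sum.inl (i, s')) → ∃ x ∈ Q, x (Sum.inl (i, s)) ≠ Sum.inl (i, s) ∧ x v = v)
    {u v : Pts M R 2} (huv : u ≠ v) (hN : swap u v ∈ Subgroup.normalizer (Q : Set (Perm (Pts M R 2)))) :
    ∃ i, swap u v = (cc i : Perm (Pts M R 2)) := by
  have main : ∀ (i : M) (s : ZMod 2) (v : Pts M R 2), Sum.inl (i, s) ≠ v →
      swap (Sum.inl (i, s)) v ∈ Subgroup.normalizer (Q : Set (Perm (Pts M R 2))) → swap (Sum.inl (i, s)) v = (cc i : Perm (Pts M R 2)) := by
    intro i s v hne hN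
    by_cases hv : ∃ s', v = Sum.inl (i, s')
    · obtain ⟨s', rfl⟩ := hv
      have : s ≠ s' := by
        rintro rfl
        exact hne rfl
      rw [cc_eq_swap]
      have aux : ∀ s s' : ZMod 2, s ≠ s' → (s = 0 ∧ s' = 1) ∨ (s = 1 ∧ s' = 0) := by decide
      have hs := aux s s' this
      rcases hs with ⟨rfl, rfl⟩ | ⟨rfl, rfl⟩
      · rfl
      · exact swap_comm _ _
    · exfalso
      push Not at hv
      obtain ⟨x, hxQ, hx1, hx2⟩ := hx i s v (fun s' h => hv s' h)
      set u : Pts M R 2 := Sum.inl (i, s) with hu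
      have hc : swap u v * x * (swap u v)⁻¹ ∈ Q := (Subgroup.mem_normalizer_iff.1 hN x).1 hxQ
      have hc2 : swap u v * x * (swap u v)⁻¹ * x⁻¹ ∈ Q := Q.mul_mem hc (Q.inv_mem hxQ)
      have e : swap u v * x * (swap u v)⁻¹ * x⁻¹ = swap v u * swap v (x u) := by
        have e1 : x * swap u v * x⁻¹ = swap (x u) v := by
          rw [← swap_apply_apply, hx2]
        rw [swap_inv, mul_assoc, mul_assoc, swap_comm v (x u), ← e1, swap_comm v u]
        group
      rw [e] at hc2
      have hxuv : x u ≠ v := by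
        intro h
        apply hne
        apply x.injective
        rw [h, hx2]
      have h3 : (swap v u * swap v (x u)).IsThreeCycle :=
        isThreeCycle_swap_mul_swap_same hne.symm hxuv.symm hx1.symm
      obtain ⟨k, hk⟩ := h2 _ hc2
      have h4 := orderOf_dvd_of_pow_eq_one hk
      rw [h3.orderOf] at h4
      have h5 := (Nat.prime_three.dvd_of_dvd_pow h4)
      exact absurd h5 (by decide)
  rcases u with ⟨i, s⟩ | r
  · exact ⟨i, main i s v huv hN⟩
  · rcases v with ⟨i, s⟩ | r'
    · refine ⟨i, ?_⟩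
      rw [swap_comm] at hN ⊢
      exact main i s _ huv.symm hN
    · exact absurd (by rw [Subsingleton.elim r r']) huv

/-- The normal form of an element normalizing such a `2`-group. -/
theorem mon_of_normalizes {Q : Subgroup (Perm (Pts M R 2))} (h2 : ∀ x ∈ Q, ∃ k : ℕ, x ^ 2 ^ k = 1)
    (hx : ∀ i s (v : Pts M R 2), (∀ s', v ≠ Sum.inl (i, s')) → ∃ x ∈ Q, x (Sum.inl (i, s)) ≠ Sum.inl (i, s) ∧ x v = v)
    (hcc : ∀ i, (cc i : Perm (Pts M R 2)) ∈ Subgroup.normalizer (Q : Set (Perm (Pts M R 2))))
    {y : Perm (Pts M R 2)} (hy : y ∈ Subgroup.normalizer (Q : Set (Perm (Pts M R 2)))) :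
    ∃ σ f, y = mon σ 1 f := by
  have hu : Subsingleton (ZMod 2)ˣ := by
    constructor
    decide
  obtain ⟨σ, a, f, h⟩ : ∃ σ a f, y = mon σ a f := by
    apply normal_form
    intro i
    have h1 : y * cc i * y⁻¹ ∈ Subgroup.normalizer (Q : Set (Perm (Pts M R 2))) :=
      Subgroup.mul_mem _ (Subgroup.mul_mem _ hy (hcc i)) (Subgroup.inv_mem _ hy)
    rw [cc_eq_swap, ← swap_apply_apply] at h1
    have hne : y (Sum.inl (i, 0)) ≠ y (Sum.inl (i, 1)) := by
      intro h
      have := y.injective h
      simp at this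
    obtain ⟨j, hj⟩ := swap_eq_cc h2 hx hne h1
    refine ⟨j, 1, ?_⟩
    rw [cc_eq_swap, ← swap_apply_apply, hj]
    simp
  refine ⟨σ, f, ?_⟩
  rw [h, Subsingleton.elim a 1]

end Two

section Good

/-- A good Sylow-like subgroup of a symmetric group. -/
structure Good (p : ℕ) {M : Type*} [Fintype M] (W : Subgroup (Perm M)) : Prop where
  card : Nat.card W = p ^ padicValNat p (Fintype.card M).factorial
  gen : W ≤ Subgroup.closure {x | x ∈ W ∧ x ^ p = 1}
  sn : p = 2 → ∀ y ∈ Subgroup.normalizer (W : Set (Perm M)), y ∈ W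

variable {M R : Type*} [Fintype M] [DecidableEq M] [Fintype R] [DecidableEq R] {p : ℕ} [hp : Fact p.Prime]

theorem card_pts : Fintype.card (Pts M R p) = p * Fintype.card M + Fintype.card R := by
  rw [Fintype.card_sum, Fintype.card_prod, ZMod.card, mul_comm]

theorem tt_pow (w : Perm M) (n : ℕ) : (tt w : Perm (Pts M R p)) ^ n = tt (w ^ n) :=
  (map_pow (ttHom (R := R) (p := p)) w n).symm

theorem card_wr_eq {W : Subgroup (Perm M)} (hW : Nat.card W = p ^ padicValNat p (Fintype.card M).factorial)
    (hR : Fintype.card R < p) :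
    Nat.card (wr W : Subgroup (Perm (Pts M R p))) = p ^ padicValNat p (Fintype.card (Pts M R p)).factorial := by
  rw [card_wr, hW, ← pow_add, card_pts, padicValNat_factorial_mul_add _ hR, padicValNat_factorial_mul, add_comm]

theorem gen_wr {W : Subgroup (Perm M)} (hW : W ≤ Subgroup.closure {x | x ∈ W ∧ x ^ p = 1}) :
    (wr W : Subgroup (Perm (Pts M R p))) ≤ Subgroup.closure {x | x ∈ (wr W : Subgroup (Perm (Pts M R p))) ∧ x ^ p = 1} := by
  rintro _ ⟨w, hw, f, rfl⟩
  rw [mon_eq_tt_mul]
  refine Subgroup.mul_mem _ ?_ (Subgroup.subset_closure ⟨bb_mem_wr W f, bb_pow_p f⟩)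
  have h1 : Subgroup.closure {x | x ∈ W ∧ x ^ p = 1} ≤
      (Subgroup.closure {x | x ∈ (wr W : Subgroup (Perm (Pts M R p))) ∧ x ^ p = 1}).comap (ttHom (R := R) (p := p)) := by
    rw [Subgroup.closure_le]
    rintro s ⟨hs, hs1⟩
    apply Subgroup.subset_closure
    refine ⟨tt_mem_wr hs, ?_⟩
    show (tt s : Perm (Pts M R p)) ^ p = 1
    rw [tt_pow, hs1, tt_one]
  exact h1 (hW hw)

theorem conj_tt_mem {W : Subgroup (Perm M)} {y : Perm (Pts M R p)} {σ : Perm M} {f : M → ZMod p}
    (hy : y = mon σ 1 f) {w : Perm M} (h : y * tt w * y⁻¹ ∈ (wr W : Subgroup (Perm (Pts M R p)))) : σ * w * σ⁻¹ ∈ W := by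
  subst hy
  rw [mon_inv_t, tt, mon_mul, mon_mul] at h
  obtain ⟨w', hw', f', e⟩ := h
  rw [(mon_inj e).1]
  exact hw'

/-- `wr W` consists of `p`-elements if `W` does. -/
theorem pow_mem_wr {W : Subgroup (Perm M)} {k : ℕ} (hW : ∀ w ∈ W, w ^ p ^ k = 1) :
    ∀ x ∈ (wr W : Subgroup (Perm (Pts M R p))), x ^ p ^ (k + 1) = 1 := by
  rintro _ ⟨w, hw, f, rfl⟩
  have h1 : ∀ n : ℕ, ∃ g, (mon w 1 f : Perm (Pts M R p)) ^ n = mon (w ^ n) 1 g := by
    intro n
    induction n with
    | zero =>
      exact ⟨0, by simpa using mon_one.symm⟩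
    | succ n ih =>
      obtain ⟨g, hg⟩ := ih
      refine ⟨fun i => (1 : ZMod p) * f i + g (w i), ?_⟩
      rw [pow_succ, hg, mon_mul, pow_succ]
      exact mon_congr rfl (fun i => by simp) (fun i => by simp)
  obtain ⟨g, hg⟩ := h1 (p ^ k)
  rw [pow_succ, pow_mul, hg, hW w hw]
  exact bb_pow_p g

theorem isPGroup_of_card {X : Type*} [Group X] {Q : Subgroup X} {n : ℕ} (h : Nat.card Q = p ^ n) : ∀ x ∈ Q, x ^ p ^ n = 1 := by
  intro x hx
  have h1 : (⟨x, hx⟩ : Q) ^ Nat.card Q = 1 := pow_card_eq_one'
  rw [h] at h1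
  exact congrArg Subtype.val h1

theorem good_wr {W : Subgroup (Perm M)} (hW : Good p W) (hR : Fintype.card R < p) :
    Good p (wr W : Subgroup (Perm (Pts M R p))) := by
  refine ⟨card_wr_eq hW.card hR, gen_wr hW.gen, ?_⟩
  rintro rfl y hy
  haveI : Subsingleton R := by
    have : Fintype.card R ≤ 1 := by omega
    exact Fintype.card_le_one_iff_subsingleton.1 this
  have h2 : ∀ x ∈ (wr W : Subgroup (Perm (Pts M R 2))), ∃ k : ℕ, x ^ 2 ^ k = 1 := by
    intro x hx
    exact ⟨_, isPGroup_of_card (card_wr_eq hW.card hR) x hx⟩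
  obtain ⟨σ, f, hf⟩ := mon_of_normalizes h2 (fun i s v hv => by
    refine ⟨cc i, bb_mem_wr W _, ?_, ?_⟩
    · simp
    · rcases v with ⟨l, t⟩ | r
      · have hl : l ≠ i := by
          rintro rfl
          exact hv t rfl
        simp [Pi.single_eq_of_ne hl]
      · simp) (fun i => Subgroup.le_normalizer (bb_mem_wr W _)) hy
  have hσ : σ ∈ Subgroup.normalizer (W : Set (Perm M)) := by
    refine Subgroup.mem_normalizer_fintype (fun w hw => ?_)
    exact conj_tt_mem hf ((Subgroup.mem_normalizer_iff.1 hy _).1 (tt_mem_wr hw))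
  rw [hf]
  exact mon_mem_wr (hW.sn rfl σ hσ) f

/-- Transport along an equivalence. -/
theorem Good.map {X Y : Type*} [Fintype X] [Fintype Y] [DecidableEq X] [DecidableEq Y] {W : Subgroup (Perm X)} (hW : Good p W) (e : X ≃ Y) :
    Good p (W.map (e.permCongrHom.toMonoidHom)) := by
  set φ : Perm X ≃* Perm Y := e.permCongrHom with hφ
  refine ⟨?_, ?_, ?_⟩
  · rw [Subgroup.card_map_of_injective φ.injective, hW.card, Fintype.card_congr e]
  · rintro _ ⟨w, hw, rfl⟩
    have h1 : Subgroup.closure {x | x ∈ W ∧ x ^ p = 1} ≤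
        (Subgroup.closure {x | x ∈ W.map φ.toMonoidHom ∧ x ^ p = 1}).comap φ.toMonoidHom := by
      rw [Subgroup.closure_le]
      rintro s ⟨hs, hs1⟩
      apply Subgroup.subset_closure
      refine ⟨⟨s, hs, rfl⟩, ?_⟩
      show φ s ^ p = 1
      rw [← map_pow, hs1, map_one]
    exact h1 (hW.gen hw)
  · intro h2 y hy
    obtain ⟨y₀, rfl⟩ := φ.surjective y
    refine ⟨y₀, hW.sn h2 y₀ ?_, rfl⟩
    refine Subgroup.mem_normalizer_fintype (fun w hw => ?_)
    have h1 := (Subgroup.mem_normalizer_iff.1 hy (φ w)).1 ⟨w, hw, rfl⟩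
    obtain ⟨w', hw', e1⟩ := h1
    have e2 : φ w' = φ (y₀ * w * y₀⁻¹) := by
      rw [map_mul, map_mul, map_inv]
      exact e1
    rw [← φ.injective e2]
    exact hw'

/-- Existence of good subgroups. -/
theorem exists_good (p : ℕ) [hp : Fact p.Prime] (n : ℕ) : ∀ (X : Type) [Fintype X] [DecidableEq X], Fintype.card X = n →
    ∃ W : Subgroup (Perm X), Good p W := by
  induction n using Nat.strong_induction_on with
  | _ n ih =>
    intro X _ _ hX
    have hpp := hp.out
    by_cases hn : n = 0
    · subst hn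
      haveI : IsEmpty X := Fintype.card_eq_zero_iff.1 hX
      refine ⟨⊥, ?_, bot_le, fun _ y _ => ?_⟩
      · rw [hX]
        simp
      · rw [Subsingleton.elim y 1]
        exact Subgroup.one_mem _
    · have hm : n / p < n := Nat.div_lt_self (Nat.pos_of_ne_zero hn) hpp.one_lt
      obtain ⟨W, hW⟩ := ih (n / p) hm (Fin (n / p)) (by simp)
      have hr : Fintype.card (Fin (n % p)) < p := by
        simp only [Fintype.card_fin]
        exact Nat.mod_lt _ hpp.pos
      have hg := good_wr (R := Fin (n % p)) hW hr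
      have hcard : Fintype.card (Pts (Fin (n / p)) (Fin (n % p)) p) = Fintype.card X := by
        rw [card_pts, hX]
        simp only [Fintype.card_fin]
        exact Nat.div_add_mod n p
      exact ⟨_, hg.map (Fintype.equivOfCardEq hcard)⟩

end Good

end Cfsg.Agent.Lib.Fusion.AltF
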