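/-
Closed subgroups of the Sylow subgroup of an alternating group.
-/
import Cfsg.Agent.Lib.Fusion.AltF2
import Cfsg.Agent.Lib.Transfer.Frattini

set_option autoImplicit false
set_option linter.unusedSectionVars false
set_option linter.unusedVariables false
set_option linter.unusedSimpArgs false
set_option linter.style.haveILetI false

namespace Cfsg.Agent.Lib.Fusion.AltF

open Equiv Equiv.Perm

variable {M R : Type*} [Fintype M] [DecidableEq M] [Fintype R] [DecidableEq R] {p : ℕ} [hp : Fact p.Prime]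

/-- The intersection with the alternating group. -/
abbrev QQ (W : Subgroup (Perm M)) : Subgroup (Perm (Pts M R p)) := wr W ⊓ alternatingGroup (Pts M R p)

theorem sign_tt_of_pow {s : Perm M} (hs : s ^ p = 1) : sign (tt s : Perm (Pts M R p)) = 1 := by
  rw [sign_tt, ← map_pow, hs, map_one]

theorem tt_pow_eq_one {s : Perm M} (hs : s ^ p = 1) : (tt s : Perm (Pts M R p)) ^ p = 1 := by
  rw [tt_pow, hs, tt_one]

theorem sign_bb (f : M → ZMod p) : sign (bb f : Perm (Pts M R p)) = ∏ i, sign (affP (1 : (ZMod p)ˣ) (f i)) := by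
  rw [bb, sign_fiber]
  rfl

theorem affP_one_zero : affP (1 : (ZMod p)ˣ) (0 : ZMod p) = 1 := by
  ext t
  simp [affP_apply]

theorem sign_cc (i : M) : sign (cc i : Perm (Pts M R p)) = sign (affP (1 : (ZMod p)ˣ) (1 : ZMod p)) := by
  rw [cc, sign_bb, Finset.prod_eq_single i]
  · simp
  · intro l _ hl
    rw [Pi.single_eq_of_ne hl, affP_one_zero, map_one]
  · simp

theorem bb_diff_mem (W : Subgroup (Perm M)) (i k : M) :
    (bb (Pi.single i 1 - Pi.single k 1) : Perm (Pts M R p)) ∈ (QQ W : Subgroup (Perm (Pts M R p))) := by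
  refine ⟨bb_mem_wr W _, ?_⟩
  show _ ∈ alternatingGroup _
  rw [mem_alternatingGroup, bb_sub, map_mul, map_inv, sign_cc, sign_cc, mul_inv_cancel]

theorem tt_mem_QQ {W : Subgroup (Perm M)} (hW : W ≤ Subgroup.closure {x | x ∈ W ∧ x ^ p = 1}) {w : Perm M} (hw : w ∈ W) :
    (tt w : Perm (Pts M R p)) ∈ (QQ W : Subgroup (Perm (Pts M R p))) := by
  have h1 : Subgroup.closure {x | x ∈ W ∧ x ^ p = 1} ≤
      (QQ W : Subgroup (Perm (Pts M R p))).comap (ttHom (R := R) (p := p)) := by
    rw [Subgroup.closure_le]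
    rintro s ⟨hs, hs1⟩
    exact ⟨tt_mem_wr hs, sign_tt_of_pow hs1⟩
  exact h1 (hW hw)

/-- `QQ W` is generated by the elements of order `p`. -/
theorem closure_QQ {W : Subgroup (Perm M)} (hW : W ≤ Subgroup.closure {x | x ∈ W ∧ x ^ p = 1}) :
    (QQ W : Subgroup (Perm (Pts M R p))) ≤ Subgroup.closure {x | x ∈ (QQ W : Subgroup (Perm (Pts M R p))) ∧ x ^ p = 1} := by
  rintro y ⟨⟨w, hw, f, rfl⟩, hyA⟩
  have h1 : Subgroup.closure {x | x ∈ W ∧ x ^ p = 1} ≤
      (Subgroup.closure {x | x ∈ (QQ W : Subgroup (Perm (Pts M R p))) ∧ x ^ p = 1}).comap (ttHom (R := R) (p := p)) := by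
    rw [Subgroup.closure_le]
    rintro s ⟨hs, hs1⟩
    apply Subgroup.subset_closure
    exact ⟨⟨tt_mem_wr hs, sign_tt_of_pow hs1⟩, tt_pow_eq_one hs1⟩
  have h2 : (tt w : Perm (Pts M R p)) ∈ Subgroup.closure {x | x ∈ (QQ W : Subgroup (Perm (Pts M R p))) ∧ x ^ p = 1} := h1 (hW hw)
  have h3 : Subgroup.closure {x | x ∈ (QQ W : Subgroup (Perm (Pts M R p))) ∧ x ^ p = 1} ≤ QQ W := by
    rw [Subgroup.closure_le]
    rintro x hx
    exact hx.1
  rw [mon_eq_tt_mul]
  refine Subgroup.mul_mem _ h2 (Subgroup.subset_closure ⟨⟨bb_mem_wr W f, ?_⟩, bb_pow_p f⟩)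
  have h4 : (tt w : Perm (Pts M R p)) ∈ alternatingGroup (Pts M R p) := (h3 h2).2
  have h5 : (mon w 1 f : Perm (Pts M R p)) ∈ alternatingGroup (Pts M R p) := hyA
  rw [mon_eq_tt_mul] at h5
  have := (Subgroup.mul_mem_cancel_left _ h4).1 h5
  exact this

section Central

variable {W : Subgroup (Perm M)}

theorem exists_third (hm : 3 ≤ Fintype.card M) (i j : M) : ∃ k, k ≠ i ∧ k ≠ j := by
  by_contra h
  push Not at h
  have : (Finset.univ : Finset M) ⊆ {i, j} := by
    intro k _
    by_cases hk : k = i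
    · simp [hk]
    · simp [h k hk]
  have h2 := Finset.card_le_card this
  rw [Finset.card_univ] at h2
  have h3 := Finset.card_le_two (a := i) (b := j)
  omega

/-- A nontrivial subgroup closed under conjugation contains a central translation. -/
theorem exists_central_bb (hm : 3 ≤ Fintype.card M) (hW : Good p W) (hR : Fintype.card R < p)
    {T : Subgroup (Perm (Pts M R p))} (hTQ : T ≤ QQ W) (hT1 : T ≠ ⊥)
    (hT : ∀ t ∈ T, ∀ h ∈ alternatingGroup (Pts M R p), h * t * h⁻¹ ∈ (QQ W : Subgroup (Perm (Pts M R p))) → h * t * h⁻¹ ∈ T) :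
    ∃ f : M → ZMod p, f ≠ 0 ∧ (bb f : Perm (Pts M R p)) ∈ T ∧ ∀ w ∈ W, ∀ l, f (w l) = f l := by
  classical
  set Q : Subgroup (Perm (Pts M R p)) := QQ W with hQ
  have hpow : ∀ x ∈ (wr W : Subgroup (Perm (Pts M R p))), x ^ p ^ (padicValNat p (Fintype.card M).factorial + 1) = 1 :=
    pow_mem_wr (isPGroup_of_card hW.card)
  have hQp : IsPGroup p Q := fun x => ⟨_, Subtype.ext (hpow x.1 x.2.1)⟩
  let N : Subgroup Q := T.subgroupOf Q
  haveI hN : N.Normal := by
    constructor
    rintro ⟨n, hn⟩ hnN ⟨g, hg⟩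
    show g * n * g⁻¹ ∈ T
    have hnQ : g * n * g⁻¹ ∈ Q := Q.mul_mem (Q.mul_mem hg hn) (Q.inv_mem hg)
    exact hT n hnN g hg.2 hnQ
  have hNne : N ≠ ⊥ := by
    intro h
    apply hT1
    rw [eq_bot_iff]
    intro x hx
    have h1 : (⟨x, hTQ hx⟩ : Q) ∈ N := hx
    rw [h, Subgroup.mem_bot] at h1
    exact congrArg Subtype.val h1
  obtain ⟨⟨z, hzQ⟩, hzN, hz1, hzc, hzp⟩ := Cfsg.Agent.Lib.Transfer.exists_central_of_normal hQp hNne
  have hzT : z ∈ T := hzN
  have hz1' : z ≠ 1 := fun h => hz1 (Subtype.ext h)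
  have hzc' : ∀ q ∈ Q, q * z = z * q := fun q hq => congrArg Subtype.val (hzc ⟨q, hq⟩)
  obtain ⟨⟨w, hw, f, rfl⟩, hzA⟩ := hzQ
  have hw1 : w = 1 := by
    by_contra hne
    obtain ⟨i, hi⟩ : ∃ i, w i ≠ i := by
      by_contra h
      push Not at h
      exact hne (Equiv.ext h)
    obtain ⟨k, hk1, hk2⟩ := exists_third hm i (w i)
    have h1 := hzc' _ (bb_diff_mem (R := R) (p := p) W i k)
    rw [bb, mon_mul, mon_mul] at h1
    have h2 := (mon_inj h1).2.2
    have h3 := congrFun h2 i
    simp only [Pi.sub_apply, Pi.one_apply, Units.val_one, one_mul, mul_one] at h3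
    rw [Pi.single_eq_same, Pi.single_eq_of_ne hk1.symm, Pi.single_eq_of_ne hi, Pi.single_eq_of_ne hk2.symm] at h3
    simp at h3
  subst hw1
  refine ⟨f, ?_, hzT, ?_⟩
  · rintro rfl
    exact hz1' bb_zero
  · intro w hw l
    have h1 := hzc' _ (show (tt w : Perm (Pts M R p)) ∈ Q from ?_)
    · rw [tt, mon_mul, mon_mul] at h1
      have h2 := (mon_inj h1).2.2
      have h3 := congrFun h2 l
      have h4 : f l = f (w l) := by simpa using h3
      exact h4.symm
    · exact tt_mem_QQ hW.gen hw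

end Central

section Final

variable {W : Subgroup (Perm M)}

theorem card_support_mon (t : Perm M) (g : M → ZMod p) :
    (mon t 1 g : Perm (Pts M R p)).support.card = p * (Finset.univ.filter (fun l => t l ≠ l ∨ g l ≠ 0)).card := by
  have e : (mon t 1 g : Perm (Pts M R p)).support =
      Finset.image (fun x => (Sum.inl x : Pts M R p)) ((Finset.univ.filter (fun l => t l ≠ l ∨ g l ≠ 0)) ×ˢ Finset.univ) := by
    ext x
    rcases x with ⟨i, u⟩ | r
    · simp only [Equiv.Perm.mem_support, mon_inl, Finset.mem_image, Finset.mem_product, Finset.mem_filter, Finset.mem_univ, true_and, and_true,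
        Sum.inl.injEq, Prod.exists, Prod.mk.injEq, ne_eq, Pi.one_apply, Units.val_one, one_mul]
      constructor
      · intro h
        refine ⟨i, u, ?_, rfl, rfl⟩
        by_contra h2
        push Not at h2
        exact h ⟨h2.1, by rw [h2.2, add_zero]⟩
      · rintro ⟨a, b, h, rfl, rfl⟩ h3
        rcases h with h | h
        · exact h h3.1
        · apply h
          exact add_left_cancel (a := b) (by rw [h3.2, add_zero])
    · simp [Equiv.Perm.mem_support]
  rw [e, Finset.card_image_of_injective _ Sum.inl_injective, Finset.card_product, Finset.card_univ, ZMod.card, mul_comm]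

theorem three_p_le_card (hm : 3 ≤ Fintype.card M) : p + 2 ≤ Fintype.card (Pts M R p) := by
  have hpp := hp.out
  rw [card_pts]
  have : p * 3 ≤ p * Fintype.card M := Nat.mul_le_mul_left _ hm
  have := hpp.two_le
  omega

/-- If `T` contains enough translations then it contains `QQ W`. -/
theorem le_of_all_bb (hm : 3 ≤ Fintype.card M) (hW : W ≤ Subgroup.closure {x | x ∈ W ∧ x ^ p = 1}) (hR : Fintype.card R < p)
    {T : Subgroup (Perm (Pts M R p))} (hTQ : T ≤ QQ W)
    (hT : ∀ t ∈ T, ∀ h ∈ alternatingGroup (Pts M R p), h * t * h⁻¹ ∈ (QQ W : Subgroup (Perm (Pts M R p))) → h * t * h⁻¹ ∈ T)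
    (hb : ∀ f : M → ZMod p, (p = 2 → ∑ i, f i = 0) → (bb f : Perm (Pts M R p)) ∈ T) :
    (QQ W : Subgroup (Perm (Pts M R p))) ≤ T := by
  have hpp := hp.out
  refine (closure_QQ hW).trans ?_
  rw [Subgroup.closure_le]
  rintro x ⟨hxQ, hxp⟩
  by_cases hx1 : x = 1
  · rw [hx1]
    exact T.one_mem
  obtain ⟨k, hk⟩ := dvd_card_support hxp
  have hk0 : k ≠ 0 := by
    rintro rfl
    apply hx1
    rw [mul_zero] at hk
    exact Equiv.Perm.support_eq_empty_iff.1 (Finset.card_eq_zero.1 hk)
  have hkM : k ≤ Fintype.card M := by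
    have h1 : x.support.card ≤ Fintype.card (Pts M R p) := Finset.card_le_univ _
    rw [hk, card_pts] at h1
    by_contra h2
    push Not at h2
    have h3 : p * (Fintype.card M + 1) ≤ p * k := Nat.mul_le_mul_left _ h2
    rw [mul_add, mul_one] at h3
    omega
  obtain ⟨J, -, hJ⟩ := Finset.exists_subset_card_eq (s := (Finset.univ : Finset M)) (n := k) (by rwa [Finset.card_univ])
  let f : M → ZMod p := fun i => if i ∈ J then 1 else 0
  have hfilter : (Finset.univ.filter (fun i => f i ≠ 0)) = J := by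
    ext i
    simp only [Finset.mem_filter, Finset.mem_univ, true_and, f]
    by_cases h : i ∈ J
    · simp [h]
    · simp [h]
  have hsupp : (bb f : Perm (Pts M R p)).support.card = p * k := by
    rw [card_support_bb, hfilter, hJ]
  have hy1 : (bb f : Perm (Pts M R p)) ≠ 1 := by
    intro h
    rw [h] at hsupp
    simp only [Equiv.Perm.support_one, Finset.card_empty] at hsupp
    exact (Nat.mul_ne_zero hpp.ne_zero hk0) hsupp.symm
  have hbf : (bb f : Perm (Pts M R p)) ∈ T := by
    apply hb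
    rintro rfl
    have hs : (∑ i, f i) = (k : ZMod 2) := by
      simp only [f]
      rw [Finset.sum_ite_mem]
      simp [hJ]
    rw [hs]
    have hxA : sign x = 1 := hxQ.2
    have hct := cycleType_of_pow hxp
    have e1 : x.support.card / 2 = k := by
      rw [hk]
      exact Nat.mul_div_cancel_left _ (by norm_num)
    rw [e1] at hct
    rw [sign_of_cycleType, hct] at hxA
    simp only [Multiset.sum_replicate, smul_eq_mul, Multiset.card_replicate] at hxA
    have hev : Even k := by
      by_contra hodd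
      rw [Nat.not_even_iff_odd] at hodd
      have : Odd (k * 2 + k) := by
        exact Even.add_odd (even_two.mul_left k) hodd
      rw [this.neg_one_pow] at hxA
      exact absurd hxA (by decide)
    obtain ⟨m, hm⟩ := hev
    rw [hm]
    push_cast
    exact CharTwo.add_self_eq_zero _
  obtain ⟨h, hA, hh⟩ := exists_alt_conj hxp (bb_pow_p f) hy1 (by rw [hsupp, hk]) (three_p_le_card hm)
  have := hT _ hbf h hA (by rw [hh]; exact hxQ)
  rwa [hh] at this

/-- From the blocks to all translations. -/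
theorem bb_mem_of_cc {T : Subgroup (Perm (Pts M R p))} (h : ∀ j, (cc j : Perm (Pts M R p)) ∈ T) (f : M → ZMod p) :
    (bb f : Perm (Pts M R p)) ∈ T := by
  let Q : AddSubgroup (M → ZMod p) :=
    { carrier := {f | (bb f : Perm (Pts M R p)) ∈ T}
      add_mem' := fun {a b} ha hb => by
        show (bb (a + b) : Perm (Pts M R p)) ∈ T
        rw [bb_add]
        exact T.mul_mem ha hb
      zero_mem' := by
        show (bb 0 : Perm (Pts M R p)) ∈ T
        rw [bb_zero]
        exact T.one_mem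
      neg_mem' := fun {a} ha => by
        show (bb (-a) : Perm (Pts M R p)) ∈ T
        rw [bb_neg]
        exact T.inv_mem ha }
  have e : f = ∑ l, (f l).val • (Pi.single l 1 : M → ZMod p) := by
    ext x
    rw [Finset.sum_apply, Finset.sum_eq_single x]
    · simp only [Pi.smul_apply, Pi.single_eq_same, nsmul_eq_mul, mul_one, ZMod.natCast_zmod_val]
    · intro l _ hl
      simp only [Pi.smul_apply, Pi.single_eq_of_ne hl.symm, smul_zero]
    · simp
  show f ∈ Q
  rw [e]
  exact Q.sum_mem (fun l _ => Q.nsmul_mem (h l) _)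

theorem bb_mem_of_diff [Nonempty M] {T : Subgroup (Perm (Pts M R p))} (h : ∀ a c, a ≠ c → (bb (Pi.single a 1 - Pi.single c 1) : Perm (Pts M R p)) ∈ T)
    (f : M → ZMod p) (hf : ∑ i, f i = 0) : (bb f : Perm (Pts M R p)) ∈ T := by
  let Q : AddSubgroup (M → ZMod p) :=
    { carrier := {f | (bb f : Perm (Pts M R p)) ∈ T}
      add_mem' := fun {a b} ha hb => by
        show (bb (a + b) : Perm (Pts M R p)) ∈ T
        rw [bb_add]
        exact T.mul_mem ha hb
      zero_mem' := by
        show (bb 0 : Perm (Pts M R p)) ∈ T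
        rw [bb_zero]
        exact T.one_mem
      neg_mem' := fun {a} ha => by
        show (bb (-a) : Perm (Pts M R p)) ∈ T
        rw [bb_neg]
        exact T.inv_mem ha }
  obtain ⟨l₀⟩ := ‹Nonempty M›
  have e : f = ∑ l, (f l).val • ((Pi.single l 1 : M → ZMod p) - Pi.single l₀ 1) := by
    ext x
    have key : ∀ l, (((f l).val • ((Pi.single l 1 : M → ZMod p) - Pi.single l₀ 1) : M → ZMod p) x) =
        f l * (Pi.single l 1 : M → ZMod p) x - f l * (Pi.single l₀ 1 : M → ZMod p) x := by
      intro l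
      simp only [Pi.smul_apply, Pi.sub_apply, nsmul_eq_mul, ZMod.natCast_zmod_val, mul_sub]
    rw [Finset.sum_apply]
    simp_rw [key]
    rw [Finset.sum_sub_distrib, ← Finset.sum_mul, hf, zero_mul, sub_zero, Finset.sum_eq_single x]
    · simp
    · intro l _ hl
      rw [Pi.single_eq_of_ne hl.symm, mul_zero]
    · simp
  show f ∈ Q
  rw [e]
  refine Q.sum_mem (fun l _ => Q.nsmul_mem ?_ _)
  by_cases hl : l = l₀
  · subst hl
    rw [sub_self]
    exact Q.zero_mem
  · exact h l l₀ hl

/-- The closure statement for `p` odd. -/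
theorem closed_odd (hp2 : p ≠ 2) (hm : 3 ≤ Fintype.card M) (hW : Good p W) (hR : Fintype.card R < p)
    {T : Subgroup (Perm (Pts M R p))} (hTQ : T ≤ QQ W) (hT1 : T ≠ ⊥)
    (hT : ∀ t ∈ T, ∀ h ∈ alternatingGroup (Pts M R p), h * t * h⁻¹ ∈ (QQ W : Subgroup (Perm (Pts M R p))) → h * t * h⁻¹ ∈ T) :
    (QQ W : Subgroup (Perm (Pts M R p))) ≤ T := by
  have hpp := hp.out
  obtain ⟨f, hf0, hfT, -⟩ := exists_central_bb hm hW hR hTQ hT1 hT
  obtain ⟨i, hi⟩ : ∃ i, f i ≠ 0 := by
    by_contra h
    push Not at h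
    exact hf0 (funext h)
  have hX := three_p_le_card (R := R) (p := p) hm
  have hsgn : ∀ g : M → ZMod p, (bb g : Perm (Pts M R p)) ∈ (QQ W : Subgroup (Perm (Pts M R p))) := fun g =>
    ⟨bb_mem_wr W g, sign_of_pow hp2 (bb_pow_p g)⟩
  have h20 : (2 : ZMod p) ≠ 0 := by
    intro h
    have : ((2 : ℕ) : ZMod p) = 0 := by exact_mod_cast h
    rw [ZMod.natCast_eq_zero_iff] at this
    exact hp2 ((Nat.prime_dvd_prime_iff_eq hpp Nat.prime_two).1 this)
  have hfy1 : (bb f : Perm (Pts M R p)) ≠ 1 := by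
    intro h
    have h1 := card_support_bb (R := R) f
    rw [h] at h1
    simp only [Equiv.Perm.support_one, Finset.card_empty] at h1
    have h2 : (Finset.univ.filter (fun l => f l ≠ 0)).card ≠ 0 :=
      Finset.card_ne_zero_of_mem (a := i) (by simpa using hi)
    exact (Nat.mul_ne_zero hpp.ne_zero h2) h1.symm
  set f' : M → ZMod p := f + Pi.single i (f i) with hf'
  have hs : (bb f' : Perm (Pts M R p)).support.card = (bb f : Perm (Pts M R p)).support.card := by
    rw [card_support_bb, card_support_bb]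
    congr 1
    refine congrArg Finset.card (Finset.filter_congr ?_)
    intro l _
    by_cases hl : l = i
    · subst hl
      simp only [hf', Pi.add_apply, Pi.single_eq_same]
      rw [← two_mul]
      simp [h20, hi]
    · simp [hf', Pi.single_eq_of_ne hl]
  obtain ⟨h, hA, hh⟩ := exists_alt_conj (bb_pow_p f') (bb_pow_p f) hfy1 hs hX
  have hf'T : (bb f' : Perm (Pts M R p)) ∈ T := by
    have := hT _ hfT h hA (by rw [hh]; exact hsgn f')
    rwa [hh] at this
  have h1 : (bb (Pi.single i (f i)) : Perm (Pts M R p)) ∈ T := by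
    have e : (bb (Pi.single i (f i)) : Perm (Pts M R p)) = (bb f)⁻¹ * bb f' := by
      rw [hf', bb_add]
      group
    rw [e]
    exact T.mul_mem (T.inv_mem hfT) hf'T
  have h2 : (cc i : Perm (Pts M R p)) ∈ T := by
    have e : (Pi.single i 1 : M → ZMod p) = ((f i)⁻¹).val • (Pi.single i (f i) : M → ZMod p) := by
      ext x
      by_cases hx : x = i
      · subst hx
        simp [hi]
      · simp [Pi.single_eq_of_ne hx]
    rw [cc, e, bb_nsmul]
    exact T.pow_mem h1 _
  have h3 : ∀ j, (cc j : Perm (Pts M R p)) ∈ T := by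
    intro j
    have hi1 : (cc i : Perm (Pts M R p)) ≠ 1 := by
      intro h
      have h1 := card_support_cc (R := R) (p := p) i
      rw [h] at h1
      simp only [Equiv.Perm.support_one, Finset.card_empty] at h1
      exact hpp.ne_zero h1.symm
    obtain ⟨h, hA, hh⟩ := exists_alt_conj (bb_pow_p (Pi.single j 1)) (bb_pow_p (Pi.single i 1)) hi1
      (by rw [card_support_cc, card_support_cc]) hX
    have := hT _ h2 h hA (by rw [hh]; exact hsgn _)
    rwa [hh] at this
  exact le_of_all_bb hm hW.gen hR hTQ hT (fun g _ => bb_mem_of_cc h3 g)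

/-- The square of a symmetric monomial element in characteristic two. -/
theorem mon_sq_two {t : Perm M} (ht : t * t = 1) {g : M → ZMod 2} (hg : ∀ l, g (t l) = g l) :
    (mon t 1 g : Perm (Pts M R 2)) ^ 2 = 1 := by
  rw [pow_two, mon_mul, ← mon_one]
  refine mon_congr ht (fun i => by simp) (fun i => ?_)
  simp only [Pi.one_apply, Units.val_one, one_mul, Pi.zero_apply, hg]
  exact CharTwo.add_self_eq_zero _

/-- The closure statement for `p = 2`. -/
theorem closed_two_step [Nonempty M] {W : Subgroup (Perm M)} (hm : 3 ≤ Fintype.card M) {T : Subgroup (Perm (Pts M R 2))} (hTQ : T ≤ QQ W)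
    (hT : ∀ t ∈ T, ∀ h ∈ alternatingGroup (Pts M R 2), h * t * h⁻¹ ∈ (QQ W : Subgroup (Perm (Pts M R 2))) → h * t * h⁻¹ ∈ T)
    {f : M → ZMod 2} (hfT : (bb f : Perm (Pts M R 2)) ∈ T) (hfW : ∀ w ∈ W, ∀ l, f (w l) = f l)
    {i k : M} (hik : i ≠ k) (hfi : f i ≠ 0) (htW : swap i k ∈ W) (a c : M) (hac : a ≠ c) :
    (bb (Pi.single a 1 - Pi.single c 1) : Perm (Pts M R 2)) ∈ T := by
  have h01 : ∀ x : ZMod 2, x ≠ 0 → x = 1 := by
    intro x
    clear * -
    revert x
    decide
  have hX := three_p_le_card (R := R) (p := 2) hm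
  set t := swap i k with ht
  have htt : t * t = 1 := swap_mul_self i k
  have hfi1 : f i = 1 := h01 _ hfi
  have hfk1 : f k = 1 := by
    have := hfW t htW i
    rw [ht, swap_apply_left] at this
    rw [this, hfi1]
  have hti : t i = k := swap_apply_left i k
  have htk : t k = i := swap_apply_right i k
  have hto : ∀ l, l ≠ i → l ≠ k → t l = l := fun l h1 h2 => swap_apply_of_ne_of_ne h1 h2
  have h11 : (1 : ZMod 2) + 1 = 0 := CharTwo.add_self_eq_zero _
  -- the auxiliary element
  set f' : M → ZMod 2 := fun l => if l = i ∨ l = k then 0 else f l with hf'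
  have hf'i : f' i = 0 := by simp [hf']
  have hf'k : f' k = 0 := by simp [hf']
  have hf'o : ∀ l, l ≠ i → l ≠ k → f' l = f l := fun l h1 h2 => by simp [hf', h1, h2]
  have hf't : ∀ l, f' (t l) = f' l := by
    intro l
    by_cases h1 : l = i
    · subst h1
      rw [hti, hf'i, hf'k]
    by_cases h2 : l = k
    · subst h2
      rw [htk, hf'i, hf'k]
    rw [hto l h1 h2]
  set z' : Perm (Pts M R 2) := mon t 1 f' with hz'
  have hz2 : z' ^ 2 = 1 := mon_sq_two htt hf't
  have hfT' := hTQ hfT
  have hsf : sign (bb f : Perm (Pts M R 2)) = 1 := hfT'.2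
  have hbf' : (bb f' : Perm (Pts M R 2)) = bb f * (cc i * cc k) := by
    rw [cc, cc, ← bb_add, ← bb_add]
    refine mon_congr rfl (fun _ => rfl) (fun l => ?_)
    by_cases h1 : l = i
    · subst h1
      simp only [hf'i, Pi.add_apply, hfi1, Pi.single_eq_same, Pi.single_eq_of_ne hik]
      simp only [add_zero, h11]
    by_cases h2 : l = k
    · subst h2
      simp only [hf'k, Pi.add_apply, hfk1, Pi.single_eq_same, Pi.single_eq_of_ne h1]
      simp only [zero_add, h11]
    simp only [hf'o l h1 h2, Pi.add_apply, Pi.single_eq_of_ne h1, Pi.single_eq_of_ne h2, add_zero]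
  have hsz : z' ∈ (QQ W : Subgroup (Perm (Pts M R 2))) := by
    refine ⟨mon_mem_wr htW f', ?_⟩
    show sign z' = 1
    rw [hz', mon_eq_tt_mul, map_mul, sign_tt, hbf', map_mul, map_mul, hsf, sign_cc, sign_cc, Int.units_sq]
    simp [← pow_two, Int.units_sq]
  have hfilter : (Finset.univ.filter (fun l => t l ≠ l ∨ f' l ≠ 0)) = Finset.univ.filter (fun l => f l ≠ 0) := by
    apply Finset.filter_congr
    intro l _
    by_cases h1 : l = i
    · subst h1
      simp [hti, hik.symm, hfi]
    by_cases h2 : l = k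
    · subst h2
      simp [htk, hik, hfk1]
    simp [hto l h1 h2, hf'o l h1 h2]
  have hsupp : z'.support.card = (bb f : Perm (Pts M R 2)).support.card := by
    rw [hz', card_support_mon, card_support_bb, hfilter]
  have hfy1 : (bb f : Perm (Pts M R 2)) ≠ 1 := by
    intro h
    have h1 := card_support_bb (R := R) f
    rw [h] at h1
    simp only [Equiv.Perm.support_one, Finset.card_empty] at h1
    have h2 : (Finset.univ.filter (fun l => f l ≠ 0)).card ≠ 0 :=
      Finset.card_ne_zero_of_mem (a := i) (by simpa using hfi)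
    exact (Nat.mul_ne_zero two_ne_zero h2) h1.symm
  obtain ⟨h, hA, hh⟩ := exists_alt_conj hz2 (bb_pow_p f) hfy1 hsupp hX
  have hzT : z' ∈ T := by
    have := hT _ hfT h hA (by rw [hh]; exact hsz)
    rwa [hh] at this
  -- the element with support of size four
  set g : M → ZMod 2 := fun l => if l = i ∨ l = k then 1 else 0 with hg
  have hgi : g i = 1 := by simp [hg]
  have hgk : g k = 1 := by simp [hg]
  have hgo : ∀ l, l ≠ i → l ≠ k → g l = 0 := fun l h1 h2 => by simp [hg, h1, h2]
  have hgt : ∀ l, g (t l) = g l := by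
    intro l
    by_cases h1 : l = i
    · subst h1
      rw [hti, hgi, hgk]
    by_cases h2 : l = k
    · subst h2
      rw [htk, hgi, hgk]
    rw [hto l h1 h2]
  have hv : (bb f : Perm (Pts M R 2)) * z' = mon t 1 g := by
    rw [hz', bb, mon_mul]
    refine mon_congr (one_mul t) (fun l => by simp) (fun l => ?_)
    simp only [Pi.one_apply, Units.val_one, one_mul]
    by_cases h1 : l = i
    · subst h1
      rw [hf'i, hti, hfk1, hgi, zero_add]
    by_cases h2 : l = k
    · subst h2
      rw [hf'k, htk, hfi1, hgk, zero_add]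
    rw [hf'o l h1 h2, hto l h1 h2, hgo l h1 h2]
    exact CharTwo.add_self_eq_zero _
  have hvT : (mon t 1 g : Perm (Pts M R 2)) ∈ T := by
    rw [← hv]
    exact T.mul_mem hfT hzT
  have hv2 : (mon t 1 g : Perm (Pts M R 2)) ^ 2 = 1 := mon_sq_two htt hgt
  have hfilter2 : (Finset.univ.filter (fun l => t l ≠ l ∨ g l ≠ 0)) = {i, k} := by
    ext l
    simp only [Finset.mem_filter, Finset.mem_univ, true_and, Finset.mem_insert, Finset.mem_singleton]
    by_cases h1 : l = i
    · subst h1
      simp [hti, hik.symm]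
    by_cases h2 : l = k
    · subst h2
      simp [htk, hik]
    simp [hto l h1 h2, hgo l h1 h2, h1, h2]
  have hsv : (mon t 1 g : Perm (Pts M R 2)).support.card = 4 := by
    rw [card_support_mon, hfilter2, Finset.card_pair hik]
  have hv1 : (mon t 1 g : Perm (Pts M R 2)) ≠ 1 := by
    intro h
    rw [h] at hsv
    simp at hsv
  have hfilter3 : (Finset.univ.filter (fun l => ((Pi.single a 1 - Pi.single c 1 : M → ZMod 2) l) ≠ 0)) = {a, c} := by
    ext l
    simp only [Finset.mem_filter, Finset.mem_univ, true_and, Finset.mem_insert, Finset.mem_singleton, Pi.sub_apply]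
    by_cases h1 : l = a
    · subst h1
      simp [hac, Pi.single_eq_of_ne hac]
    by_cases h2 : l = c
    · subst h2
      simp [h1, Pi.single_eq_of_ne h1]
    simp [h1, h2, Pi.single_eq_of_ne h1, Pi.single_eq_of_ne h2]
  have hsx : (bb (Pi.single a 1 - Pi.single c 1) : Perm (Pts M R 2)).support.card = 4 := by
    rw [card_support_bb, hfilter3, Finset.card_pair hac]
  obtain ⟨h', hA', hh'⟩ := exists_alt_conj (bb_pow_p (Pi.single a 1 - Pi.single c 1)) hv2 hv1 (by rw [hsx, hsv]) hX
  have := hT _ hvT h' hA' (by rw [hh']; exact bb_diff_mem W a c)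
  rwa [hh'] at this

/-- The closure statement for `p = 2`. -/
theorem closed_two {W : Subgroup (Perm M)} (hm : 3 ≤ Fintype.card M) (hW : Good 2 W) (hR : Fintype.card R < 2)
    (hP : ∀ f : M → ZMod 2, f ≠ 0 → (∀ w ∈ W, ∀ l, f (w l) = f l) → sign (bb f : Perm (Pts M R 2)) = 1 →
      ∃ i k, i ≠ k ∧ f i ≠ 0 ∧ swap i k ∈ W)
    {T : Subgroup (Perm (Pts M R 2))} (hTQ : T ≤ QQ W) (hT1 : T ≠ ⊥)
    (hT : ∀ t ∈ T, ∀ h ∈ alternatingGroup (Pts M R 2), h * t * h⁻¹ ∈ (QQ W : Subgroup (Perm (Pts M R 2))) → h * t * h⁻¹ ∈ T) :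
    (QQ W : Subgroup (Perm (Pts M R 2))) ≤ T := by
  haveI : Nonempty M := by
    rw [← Fintype.card_pos_iff]
    omega
  obtain ⟨f, hf0, hfT, hfW⟩ := exists_central_bb hm hW hR hTQ hT1 hT
  obtain ⟨i, k, hik, hfi, htW⟩ := hP f hf0 hfW (hTQ hfT).2
  have h1 := closed_two_step hm hTQ hT hfT hfW hik hfi htW
  exact le_of_all_bb hm hW.gen hR hTQ hT (fun g hg => bb_mem_of_diff h1 g (hg rfl))

end Final

end Cfsg.Agent.Lib.Fusion.AltF
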