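/-
The case `p = 2`: the Sylow subgroup of an alternating group is self-normalizing; and the subgroups used for `p` odd.
-/
import Cfsg.Agent.Lib.Fusion.AltF3

set_option autoImplicit false
set_option linter.unusedSectionVars false
set_option linter.unusedVariables false
set_option linter.unusedSimpArgs false
set_option linter.style.haveILetI false

namespace Cfsg.Agent.Lib.Fusion.AltF

open Equiv Equiv.Perm

variable {M R : Type*} [Fintype M] [DecidableEq M] [Fintype R] [DecidableEq R]

section Two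

theorem sn_QQ {W : Subgroup (Perm M)} (hm : 3 ≤ Fintype.card M) (hW : Good 2 W) (hR : Fintype.card R < 2)
    {y : Perm (Pts M R 2)} (hyA : y ∈ alternatingGroup (Pts M R 2))
    (hy : y ∈ Subgroup.normalizer ((QQ W : Subgroup (Perm (Pts M R 2))) : Set (Perm (Pts M R 2)))) :
    y ∈ (QQ W : Subgroup (Perm (Pts M R 2))) := by
  haveI : Subsingleton R := by
    have : Fintype.card R ≤ 1 := by omega
    exact Fintype.card_le_one_iff_subsingleton.1 this
  have h2 : ∀ x ∈ (QQ W : Subgroup (Perm (Pts M R 2))), ∃ k : ℕ, x ^ 2 ^ k = 1 := by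
    intro x hx
    exact ⟨_, pow_mem_wr (isPGroup_of_card hW.card) x hx.1⟩
  have hx : ∀ i s (v : Pts M R 2), (∀ s', v ≠ Sum.inl (i, s')) →
      ∃ x ∈ (QQ W : Subgroup (Perm (Pts M R 2))), x (Sum.inl (i, s)) ≠ Sum.inl (i, s) ∧ x v = v := by
    intro i s v hv
    have hk : ∃ k, k ≠ i ∧ ∀ t, v ≠ Sum.inl (k, t) := by
      rcases v with ⟨l, t⟩ | r
      · obtain ⟨k, hk1, hk2⟩ := exists_third hm i l
        refine ⟨k, hk1, fun t' h => ?_⟩
        simp only [Sum.inl.injEq, Prod.mk.injEq] at h
        exact hk2 h.1.symm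
      · obtain ⟨k, hk1, -⟩ := exists_third hm i i
        exact ⟨k, hk1, fun t h => by simp at h⟩
    obtain ⟨k, hk1, hk2⟩ := hk
    refine ⟨_, bb_diff_mem (R := R) (p := 2) W i k, ?_, ?_⟩
    · simp [Pi.single_eq_of_ne hk1.symm]
    · rcases v with ⟨l, t⟩ | r
      · have hli : l ≠ i := by
          rintro rfl
          exact hv t rfl
        have hlk : l ≠ k := by
          rintro rfl
          exact hk2 t rfl
        simp [Pi.single_eq_of_ne hli, Pi.single_eq_of_ne hlk]
      · simp
  have hcc : ∀ i, (cc i : Perm (Pts M R 2)) ∈ Subgroup.normalizer ((QQ W : Subgroup (Perm (Pts M R 2))) : Set (Perm (Pts M R 2))) := by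
    intro i
    refine Subgroup.mem_normalizer_fintype (fun q hq => ?_)
    refine ⟨(wr W).mul_mem ((wr W).mul_mem (bb_mem_wr W _) hq.1) ((wr W).inv_mem (bb_mem_wr W _)), ?_⟩
    show _ ∈ alternatingGroup _
    exact (inferInstance : (alternatingGroup (Pts M R 2)).Normal).conj_mem _ hq.2 _
  obtain ⟨σ, f, hf⟩ := mon_of_normalizes h2 hx hcc hy
  have hσ : σ ∈ Subgroup.normalizer (W : Set (Perm M)) := by
    refine Subgroup.mem_normalizer_fintype (fun w hw => ?_)
    exact conj_tt_mem hf ((Subgroup.mem_normalizer_iff.1 hy _).1 (tt_mem_QQ hW.gen hw)).1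
  refine ⟨?_, hyA⟩
  rw [hf]
  exact mon_mem_wr (hW.sn rfl σ hσ) f

theorem affP_one_one : sign (affP (1 : (ZMod 2)ˣ) (1 : ZMod 2)) = -1 := by
  have e : affP (1 : (ZMod 2)ˣ) (1 : ZMod 2) = swap 0 1 := by
    ext t
    have : t = 0 ∨ t = 1 := by
      clear * -
      revert t
      decide
    rcases this with rfl | rfl
    · simp [affP_apply]
    · simp only [affP_apply, Units.val_one, mul_one, swap_apply_right]
      exact CharTwo.add_self_eq_zero _
  rw [e, sign_swap (by decide)]

variable {M' R' : Type*} [Fintype M'] [DecidableEq M'] [Fintype R'] [DecidableEq R'] [Subsingleton R']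

/-- The hypothesis of `closed_two` for a wreath product. -/
theorem hP_wr (W' : Subgroup (Perm M')) (f : Pts M' R' 2 → ZMod 2) (hf : f ≠ 0)
    (hs : sign (bb f : Perm (Pts (Pts M' R' 2) R 2)) = 1) :
    ∃ i k, i ≠ k ∧ f i ≠ 0 ∧ swap i k ∈ (wr W' : Subgroup (Perm (Pts M' R' 2))) := by
  have h01 : ∀ s : ZMod 2, s = 0 ∨ s = 1 := by
    clear * -
    decide
  by_cases h : ∃ o s, f (Sum.inl (o, s)) ≠ 0
  · obtain ⟨o, s, hos⟩ := h
    have hc : (cc o : Perm (Pts M' R' 2)) ∈ (wr W' : Subgroup (Perm (Pts M' R' 2))) := bb_mem_wr W' _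
    rw [cc_eq_swap] at hc
    rcases h01 s with rfl | rfl
    · exact ⟨_, _, by simp, hos, hc⟩
    · refine ⟨Sum.inl (o, 1), Sum.inl (o, 0), by simp, hos, ?_⟩
      rwa [swap_comm]
  · exfalso
    push Not at h
    obtain ⟨i, hi⟩ : ∃ i, f i ≠ 0 := by
      by_contra h2
      push Not at h2
      exact hf (funext h2)
    rcases i with ⟨o, s⟩ | r
    · exact hi (h o s)
    · have e : f = Pi.single (Sum.inr r) 1 := by
        ext i
        rcases i with ⟨o, s⟩ | r'
        · rw [h o s, Pi.single_eq_of_ne (by simp)]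
        · rw [Subsingleton.elim r' r, Pi.single_eq_same]
          have : ∀ x : ZMod 2, x ≠ 0 → x = 1 := by
            clear * -
            decide
          exact this _ hi
      rw [e] at hs
      have h3 := sign_cc (R := R) (p := 2) (Sum.inr r : Pts M' R' 2)
      rw [cc, hs, affP_one_one] at h3
      exact absurd h3 (by decide)

end Two

section Local

variable {M' R' : Type*} [Fintype M'] [DecidableEq M'] [Fintype R'] [DecidableEq R'] {p : ℕ} [hp : Fact p.Prime]

/-- The abelian subgroups used for `p` odd. -/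
def RS (O : Finset M') : Subgroup (Perm (Pts (Pts M' R' p) R p)) where
  carrier := {y | ∃ (g : M' → ZMod p) (f : Pts M' R' p → ZMod p), (∀ o, o ∉ O → g o = 0) ∧
    (∀ o ∈ O, ∀ x x', f (Sum.inl (o, x)) = f (Sum.inl (o, x'))) ∧ y = mon (bb g) 1 f}
  mul_mem' := by
    rintro _ _ ⟨g, f, h1, h2, rfl⟩ ⟨g', f', h1', h2', rfl⟩
    refine ⟨g + g', f + f', ?_, ?_, ?_⟩
    · intro o ho
      simp [h1 o ho, h1' o ho]
    · intro o ho x x'
      simp only [Pi.add_apply]
      rw [h2 o ho x x', h2' o ho x x']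
    · rw [mon_mul, bb_add]
      refine mon_congr rfl (fun i => by simp) (fun i => ?_)
      simp only [Pi.one_apply, Units.val_one, one_mul, Pi.add_apply]
      rcases i with ⟨o, x⟩ | r
      · simp only [mon_inl, Units.val_one, one_mul, Pi.one_apply, Perm.one_apply]
        by_cases ho : o ∈ O
        · rw [h2 o ho (x + g' o) x, add_comm]
        · rw [h1' o ho, add_zero, add_comm]
      · simp [add_comm]
  one_mem' := ⟨0, 0, fun _ _ => rfl, fun _ _ _ _ => rfl, by rw [bb_zero]; exact mon_one.symm⟩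
  inv_mem' := by
    rintro _ ⟨g, f, h1, h2, rfl⟩
    refine ⟨-g, -f, ?_, ?_, ?_⟩
    · intro o ho
      simp [h1 o ho]
    · intro o ho x x'
      simp only [Pi.neg_apply]
      rw [h2 o ho x x']
    · rw [mon_inv_t, bb_neg]
      refine mon_congr (by simp) (fun i => rfl) (fun i => ?_)
      simp only [Pi.neg_apply, neg_inj]
      rcases i with ⟨o, x⟩ | r
      · have : ((bb g : Perm (Pts M' R' p))⁻¹) (Sum.inl (o, x)) = Sum.inl (o, x - g o) := by
          rw [Equiv.Perm.inv_eq_iff_eq]
          simp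
        rw [this]
        by_cases ho : o ∈ O
        · exact h2 o ho _ _
        · rw [h1 o ho, sub_zero]
      · rfl

theorem mem_RS {O : Finset M'} {y : Perm (Pts (Pts M' R' p) R p)} :
    y ∈ (RS O : Subgroup (Perm (Pts (Pts M' R' p) R p))) ↔ ∃ (g : M' → ZMod p) (f : Pts M' R' p → ZMod p), (∀ o, o ∉ O → g o = 0) ∧
    (∀ o ∈ O, ∀ x x', f (Sum.inl (o, x)) = f (Sum.inl (o, x'))) ∧ y = mon (bb g) 1 f := Iff.rfl

theorem RS_le (W' : Subgroup (Perm M')) (O : Finset M') :
    (RS O : Subgroup (Perm (Pts (Pts M' R' p) R p))) ≤ wr (wr W') := by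
  rintro _ ⟨g, f, h1, h2, rfl⟩
  exact mon_mem_wr (bb_mem_wr W' g) f

theorem mem_RS_empty {y : Perm (Pts (Pts M' R' p) R p)} :
    y ∈ (RS ∅ : Subgroup (Perm (Pts (Pts M' R' p) R p))) ↔ ∃ f, y = bb f := by
  constructor
  · rintro ⟨g, f, h1, h2, rfl⟩
    have : g = 0 := funext (fun o => h1 o (Finset.notMem_empty o))
    subst this
    rw [bb_zero]
    exact ⟨f, rfl⟩
  · rintro ⟨f, rfl⟩
    refine ⟨0, f, fun _ _ => rfl, fun o ho => absurd ho (Finset.notMem_empty o), ?_⟩
    rw [bb_zero]

/-- An element commuting with the block translation is a translation on the block. -/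
theorem block_of_comm {y : Perm (Pts M R p)} {i : M} (h : y * cc i = cc i * y) :
    ∃ s, ∀ t, y (Sum.inl (i, t)) = Sum.inl (i, t + s) := by
  have hcc : ∀ (t : ZMod p), (cc i : Perm (Pts M R p)) (Sum.inl (i, t)) = Sum.inl (i, t + 1) := by
    intro t
    simp [cc]
  have key : ∀ z, y (cc i z) = cc i (y z) := fun z => congrArg (fun g : Perm (Pts M R p) => g z) h
  have h1 : ∃ s, y (Sum.inl (i, 0)) = Sum.inl (i, s) := by
    have hne : (cc i : Perm (Pts M R p)) (y (Sum.inl (i, 0))) ≠ y (Sum.inl (i, 0)) := by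
      rw [← key, hcc]
      intro h
      have := y.injective h
      simp at this
    rcases hz : y (Sum.inl (i, 0)) with ⟨i', s⟩ | r
    · rw [hz] at hne
      by_cases hi' : i' = i
      · subst hi'
        exact ⟨s, rfl⟩
      · exfalso
        apply hne
        simp [Pi.single_eq_of_ne hi']
    · rw [hz] at hne
      exact absurd rfl hne
  obtain ⟨s, hs⟩ := h1
  refine ⟨s, ?_⟩
  have h2 : ∀ n : ℕ, y (Sum.inl (i, (n : ZMod p))) = Sum.inl (i, (n : ZMod p) + s) := by
    intro n
    induction n with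
    | zero => simp [hs]
    | succ n ih =>
      have e1 : (Sum.inl (i, ((n + 1 : ℕ) : ZMod p)) : Pts M R p) = cc i (Sum.inl (i, (n : ZMod p))) := by
        rw [hcc]
        simp
      rw [e1, key, ih, hcc]
      simp
      ring
  intro t
  have := h2 t.val
  rwa [ZMod.natCast_zmod_val] at this

/-- The centralizer of `RS O` lies in `RS O`. -/
theorem mem_RS_of_comm [Subsingleton R] {O : Finset M'} {y : Perm (Pts (Pts M' R' p) R p)}
    (h : ∀ r ∈ (RS O : Subgroup (Perm (Pts (Pts M' R' p) R p))), r * y = y * r) :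
    y ∈ (RS O : Subgroup (Perm (Pts (Pts M' R' p) R p))) := by
  classical
  -- the blocks outside `O`
  have hoth : ∀ i : Pts M' R' p, ∃ s : ZMod p, (∀ o ∈ O, ∀ x, i ≠ Sum.inl (o, x)) → ∀ t, y (Sum.inl (i, t)) = Sum.inl (i, t + s) := by
    intro i
    by_cases hi : ∀ o ∈ O, ∀ x, i ≠ Sum.inl (o, x)
    · have hc : (cc i : Perm (Pts (Pts M' R' p) R p)) ∈ (RS O : Subgroup (Perm (Pts (Pts M' R' p) R p))) := by
        refine ⟨0, Pi.single i 1, fun _ _ => rfl, fun o ho x x' => ?_, ?_⟩
        · rw [Pi.single_eq_of_ne (hi o ho x).symm, Pi.single_eq_of_ne (hi o ho x').symm]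
        · rw [bb_zero]
      obtain ⟨s, hs⟩ := block_of_comm (h _ hc).symm
      exact ⟨s, fun _ => hs⟩
    · exact ⟨0, fun h' => absurd h' hi⟩
  choose s hs using hoth
  -- the blocks inside `O`
  have hO : ∀ o : M', ∃ u v : ZMod p, o ∈ O → ∀ x t, y (Sum.inl (Sum.inl (o, x), t)) = Sum.inl (Sum.inl (o, x + u), t + v) := by
    intro o
    by_cases ho : o ∈ O
    · let φ : Pts M' R' p → ZMod p := fun i => Sum.elim (fun q : M' × ZMod p => if q.1 = o then 1 else 0) (fun _ => 0) i
      have hη : (bb φ : Perm (Pts (Pts M' R' p) R p)) ∈ (RS O : Subgroup (Perm (Pts (Pts M' R' p) R p))) := by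
        refine ⟨0, φ, fun _ _ => rfl, fun o' ho' x x' => rfl, ?_⟩
        rw [bb_zero]
      have hξ : (mon (bb (Pi.single o 1)) 1 0 : Perm (Pts (Pts M' R' p) R p)) ∈ (RS O : Subgroup (Perm (Pts (Pts M' R' p) R p))) := by
        refine ⟨Pi.single o 1, 0, fun o' ho' => ?_, fun _ _ _ _ => rfl, rfl⟩
        rw [Pi.single_eq_of_ne]
        rintro rfl
        exact ho' ho
      have keyη : ∀ z, y (bb φ z) = (bb φ : Perm (Pts (Pts M' R' p) R p)) (y z) := fun z =>
        (congrArg (fun g : Perm (Pts (Pts M' R' p) R p) => g z) (h _ hη)).symm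
      have keyξ : ∀ z, y ((mon (bb (Pi.single o 1)) 1 0 : Perm (Pts (Pts M' R' p) R p)) z) =
          (mon (bb (Pi.single o 1)) 1 0 : Perm (Pts (Pts M' R' p) R p)) (y z) := fun z =>
        (congrArg (fun g : Perm (Pts (Pts M' R' p) R p) => g z) (h _ hξ)).symm
      have hηo : ∀ x t, (bb φ : Perm (Pts (Pts M' R' p) R p)) (Sum.inl (Sum.inl (o, x), t)) = Sum.inl (Sum.inl (o, x), t + 1) := by
        intro x t
        simp [φ]
      have hξo : ∀ x t, (mon (bb (Pi.single o 1)) 1 0 : Perm (Pts (Pts M' R' p) R p)) (Sum.inl (Sum.inl (o, x), t)) =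
          Sum.inl (Sum.inl (o, x + 1), t) := by
        intro x t
        simp
      obtain ⟨u, v, huv⟩ : ∃ u v, y (Sum.inl (Sum.inl (o, 0), 0)) = Sum.inl (Sum.inl (o, u), v) := by
        have hne : (bb φ : Perm (Pts (Pts M' R' p) R p)) (y (Sum.inl (Sum.inl (o, 0), 0))) ≠ y (Sum.inl (Sum.inl (o, 0), 0)) := by
          rw [← keyη, hηo]
          intro h
          have := y.injective h
          simp at this
        rcases hz : y (Sum.inl (Sum.inl (o, 0), 0)) with ⟨i', s'⟩ | r
        · rw [hz] at hne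
          rcases i' with ⟨o', x'⟩ | r'
          · by_cases ho' : o' = o
            · subst ho'
              exact ⟨x', s', rfl⟩
            · exfalso
              apply hne
              simp [φ, ho']
          · exfalso
            apply hne
            simp [φ]
        · rw [hz] at hne
          exact absurd rfl hne
      have h1 : ∀ a b : ℕ, y (Sum.inl (Sum.inl (o, (a : ZMod p)), (b : ZMod p))) = Sum.inl (Sum.inl (o, (a : ZMod p) + u), (b : ZMod p) + v) := by
        intro a
        induction a with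
        | zero =>
          intro b
          induction b with
          | zero => simp [huv]
          | succ b ih =>
            have e1 : (Sum.inl (Sum.inl (o, ((0 : ℕ) : ZMod p)), ((b + 1 : ℕ) : ZMod p)) : Pts (Pts M' R' p) R p) =
                bb φ (Sum.inl (Sum.inl (o, ((0 : ℕ) : ZMod p)), (b : ZMod p))) := by
              rw [hηo]
              simp
            rw [e1, keyη, ih, hηo]
            simp
            ring
        | succ a ih =>
          intro b
          have e1 : (Sum.inl (Sum.inl (o, ((a + 1 : ℕ) : ZMod p)), (b : ZMod p)) : Pts (Pts M' R' p) R p) =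
              (mon (bb (Pi.single o 1)) 1 0 : Perm (Pts (Pts M' R' p) R p)) (Sum.inl (Sum.inl (o, (a : ZMod p)), (b : ZMod p))) := by
            rw [hξo]
            simp
          rw [e1, keyξ, ih, hξo]
          simp
          ring
      refine ⟨u, v, fun _ x t => ?_⟩
      have := h1 x.val t.val
      rwa [ZMod.natCast_zmod_val, ZMod.natCast_zmod_val] at this
    · exact ⟨0, 0, fun h' => absurd h' ho⟩
  choose u v huv using hO
  let g : M' → ZMod p := fun o => if o ∈ O then u o else 0
  let f : Pts M' R' p → ZMod p := fun i => Sum.elim (fun q : M' × ZMod p => if q.1 ∈ O then v q.1 else s (Sum.inl q)) (fun r' => s (Sum.inr r')) i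
  have hinl : ∀ i t, y (Sum.inl (i, t)) = (mon (bb g) 1 f : Perm (Pts (Pts M' R' p) R p)) (Sum.inl (i, t)) := by
    intro i t
    rcases i with ⟨o, x⟩ | r'
    · by_cases ho : o ∈ O
      · rw [huv o ho]
        simp [g, f, ho]
      · rw [hs (Sum.inl (o, x)) (fun o' ho' x' h => by
          simp only [Sum.inl.injEq, Prod.mk.injEq] at h
          exact ho (h.1 ▸ ho'))]
        simp [g, f, ho]
    · rw [hs (Sum.inr r') (fun o' ho' x' h => by simp at h)]
      simp [f]
  have hinr : ∀ r, y (Sum.inr r) = (mon (bb g) 1 f : Perm (Pts (Pts M' R' p) R p)) (Sum.inr r) := by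
    intro r
    rw [mon_inr]
    rcases hz : y (Sum.inr r) with ⟨i, t⟩ | r'
    · exfalso
      set e : Perm (Pts (Pts M' R' p) R p) := mon (bb g) 1 f with he
      rcases hq : e⁻¹ (Sum.inl (i, t)) with ⟨i', t'⟩ | r''
      · have h1 := hinl i' t'
        have e2 : e (e⁻¹ (Sum.inl (i, t))) = Sum.inl (i, t) := e.apply_symm_apply _
        rw [hq] at e2
        rw [e2, ← hz] at h1
        exact absurd (y.injective h1) (by simp)
      · have h1 : e (Sum.inr r'') = Sum.inr r'' := rfl
        have e2 : e (e⁻¹ (Sum.inl (i, t))) = Sum.inl (i, t) := e.apply_symm_apply _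
        rw [hq] at e2
        rw [e2] at h1
        exact absurd h1 (by simp)
    · rw [Subsingleton.elim r r']
  refine ⟨g, f, fun o ho => by simp [g, ho], fun o ho x x' => by simp [f, ho], mon_ext hinl hinr⟩

end Local

end Cfsg.Agent.Lib.Fusion.AltF
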