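/-
The normalizer of the Sylow subgroup of an alternating group for `p` odd is covered by `p`-elements of local subgroups.
-/
import Cfsg.Agent.Lib.Fusion.AltF4

set_option autoImplicit false
set_option linter.unusedSectionVars false
set_option linter.unusedVariables false
set_option linter.unusedSimpArgs false
set_option linter.style.haveILetI false

namespace Cfsg.Agent.Lib.Fusion.AltF

open Equiv Equiv.Perm

section Gen

variable {X : Type*} [Fintype X] [DecidableEq X]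

/-- The closure of the `p`-elements of the alternating group normalizing `R₀`. -/
def CC (p : ℕ) (R₀ : Subgroup (Perm X)) : Subgroup (Perm X) :=
  Subgroup.closure {g | g ∈ alternatingGroup X ∧ g ∈ Subgroup.normalizer (R₀ : Set (Perm X)) ∧ ∃ j : ℕ, g ^ p ^ j = 1}

variable {p : ℕ} [hp : Fact p.Prime]

theorem mem_CC {R₀ : Subgroup (Perm X)} {g : Perm X} (hA : g ∈ alternatingGroup X) (hN : g ∈ Subgroup.normalizer (R₀ : Set (Perm X)))
    (hg : g ^ p = 1) : g ∈ CC p R₀ :=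
  Subgroup.subset_closure ⟨hA, hN, 1, by rwa [pow_one]⟩

theorem sign_of_pow_pow (hp2 : p ≠ 2) {k : ℕ} {x : Perm X} (hx : x ^ p ^ k = 1) : sign x = 1 := by
  have hpp := hp.out
  have hodd : Odd (p ^ k) := (hpp.odd_of_ne_two hp2).pow
  have h1 : sign x ^ p ^ k = 1 := by
    rw [← map_pow, hx, map_one]
  rcases Int.units_eq_one_or (sign x) with h | h
  · exact h
  · rw [h, hodd.neg_one_pow] at h1
    exact absurd h1 (by decide)

end Gen

section Block

variable {M R : Type*} [Fintype M] [DecidableEq M] [Fintype R] [DecidableEq R] {p : ℕ} [hp : Fact p.Prime]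

theorem wr_le_alt (hp2 : p ≠ 2) {W : Subgroup (Perm M)} {k : ℕ} (hW : ∀ w ∈ W, w ^ p ^ k = 1) :
    (wr W : Subgroup (Perm (Pts M R p))) ≤ alternatingGroup (Pts M R p) := by
  intro x hx
  exact sign_of_pow_pow hp2 (pow_mem_wr hW x hx)

theorem nf_of_normalizes [Subsingleton R] {W : Subgroup (Perm M)} {Q : Subgroup (Perm (Pts M R p))} (hQ : Q ≤ wr W)
    (hcc : ∀ i, (cc i : Perm (Pts M R p)) ∈ Q) {y : Perm (Pts M R p)} (hy : y ∈ Subgroup.normalizer (Q : Set (Perm (Pts M R p)))) :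
    ∃ σ a f, y = mon σ a f := by
  apply normal_form
  intro i
  have h1 : y * cc i * y⁻¹ ∈ Q := (Subgroup.mem_normalizer_iff.1 hy _).1 (hcc i)
  obtain ⟨w, hw, f, e⟩ := hQ h1
  rw [e]
  apply eq_single_of_support
  rw [← e, card_support_conj, card_support_cc]

/-- The group of translations. -/
def BB : Subgroup (Perm (Pts M R p)) where
  carrier := {y | ∃ f, y = bb f}
  mul_mem' := by
    rintro _ _ ⟨f, rfl⟩ ⟨g, rfl⟩
    exact ⟨f + g, (bb_add f g).symm⟩
  one_mem' := ⟨0, bb_zero.symm⟩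
  inv_mem' := by
    rintro _ ⟨f, rfl⟩
    exact ⟨-f, (bb_neg f).symm⟩

theorem mon_mem_NB (σ : Perm M) (a : M → (ZMod p)ˣ) (f : M → ZMod p) :
    (mon σ a f : Perm (Pts M R p)) ∈ Subgroup.normalizer ((BB : Subgroup (Perm (Pts M R p))) : Set (Perm (Pts M R p))) := by
  refine Subgroup.mem_normalizer_fintype ?_
  rintro _ ⟨h, rfl⟩
  refine ⟨fun j => (a (σ⁻¹ j) : ZMod p) * h (σ⁻¹ j), ?_⟩
  rw [mul_inv_eq_iff_eq_mul, bb, bb, mon_mul, mon_mul]
  refine mon_congr (by simp) (fun i => by simp) (fun i => ?_)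
  simp [add_comm]

omit [Fintype M] [DecidableEq M] in
theorem addRight_pow (n : ℕ) (t : ZMod p) : ((Equiv.addRight (1 : ZMod p) : Perm (ZMod p)) ^ n) t = t + n := by
  induction n generalizing t with
  | zero => simp
  | succ n ih =>
    rw [pow_succ, Perm.mul_apply, ih]
    simp
    ring

theorem addRight_pow_p : (Equiv.addRight (1 : ZMod p) : Perm (ZMod p)) ^ p = 1 := by
  ext t
  rw [addRight_pow]
  simp

/-- A `p`-cycle along an embedding. -/
theorem exists_cycle_emb (hm : p ≤ Fintype.card M) : ∃ (φ : ZMod p ↪ M) (c : Perm M), c ^ p = 1 ∧ ∀ t, c (φ t) = φ (t + 1) := by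
  obtain ⟨φ⟩ := Function.Embedding.nonempty_of_card_le (α := ZMod p) (β := M) (by rwa [ZMod.card])
  refine ⟨φ, viaEmbedding (Equiv.addRight 1) φ, ?_, fun t => viaEmbedding_apply _ _ _⟩
  rw [← viaEmbeddingHom_apply, ← map_pow, addRight_pow_p, map_one]

theorem alt_le_closure (hp2 : p ≠ 2) (hm : p ≤ Fintype.card M) :
    alternatingGroup M ≤ Subgroup.closure {s : Perm M | s ^ p = 1} := by
  have hpp := hp.out
  obtain ⟨φ, c, hc, hcφ⟩ := exists_cycle_emb (p := p) hm
  have h1 : (0 : ZMod p) ≠ 1 := zero_ne_one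
  have h2 : (1 + 1 : ZMod p) ≠ 0 := by
    intro h
    have : ((2 : ℕ) : ZMod p) = 0 := by
      push_cast
      rw [← h]
      ring
    rw [ZMod.natCast_eq_zero_iff] at this
    exact hp2 ((Nat.prime_dvd_prime_iff_eq hpp Nat.prime_two).1 this)
  have h3 : (1 : ZMod p) ≠ 1 + 1 := by
    intro h
    simp at h
  have hne1 : φ 1 ≠ φ (1 + 1) := fun h => h3 (φ.injective h)
  have hne2 : φ 1 ≠ φ 0 := fun h => h1 (φ.injective h).symm
  have hne3 : φ (1 + 1) ≠ φ 0 := fun h => h2 (φ.injective h)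
  set s₁ := swap (φ 0) (φ 1) with hs₁
  set u := s₁ * c⁻¹ * s₁⁻¹ with hu
  have hu1 : u ^ p = 1 := by
    rw [hu, conj_pow, inv_pow, hc, inv_one, mul_one, mul_inv_cancel]
  have hg₀ : (c * u).IsThreeCycle := by
    have e1 : c * s₁ * c⁻¹ = swap (φ 1) (φ (1 + 1)) := by
      rw [hs₁, ← swap_apply_apply, hcφ, hcφ, zero_add]
    have e2 : c * u = swap (φ 1) (φ (1 + 1)) * swap (φ 1) (φ 0) := by
      rw [hu, ← e1, swap_comm (φ 1) (φ 0), ← hs₁]
      have : s₁⁻¹ = s₁ := swap_inv _ _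
      rw [this]
      group
    rw [e2]
    exact isThreeCycle_swap_mul_swap_same hne1 hne2 hne3
  rw [← closure_three_cycles_eq_alternating, Subgroup.closure_le]
  intro g hg
  obtain ⟨π, hπ⟩ := isConj_iff.1 (isConj_iff_cycleType_eq.2 (Eq.trans hg₀ (Eq.symm hg)))
  rw [← hπ]
  have e : π * (c * u) * π⁻¹ = (π * c * π⁻¹) * (π * u * π⁻¹) := by group
  rw [e]
  refine Subgroup.mul_mem _ (Subgroup.subset_closure ?_) (Subgroup.subset_closure ?_)
  · show (π * c * π⁻¹) ^ p = 1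
    rw [conj_pow, hc, mul_one, mul_inv_cancel]
  · show (π * u * π⁻¹) ^ p = 1
    rw [conj_pow, hu1, mul_one, mul_inv_cancel]

theorem exists_cycle (hm : p ≤ Fintype.card M) {i k : M} (hik : i ≠ k) : ∃ c : Perm M, c ^ p = 1 ∧ c i = k := by
  have hpp := hp.out
  obtain ⟨φ, c, hc, hcφ⟩ := exists_cycle_emb (p := p) hm
  have hφ : φ 0 ≠ φ 1 := fun h => zero_ne_one (φ.injective h)
  set π₁ := swap (φ 0) i with hπ₁
  have h1 : π₁ (φ 0) = i := swap_apply_left _ _
  set b₁ := π₁ (φ 1) with hb₁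
  have hb : b₁ ≠ i := by
    intro h
    rw [← h1] at h
    exact hφ (π₁.injective h).symm
  set π₂ := swap b₁ k with hπ₂
  have h2 : π₂ i = i := swap_apply_of_ne_of_ne hb.symm hik
  have h3 : π₂ b₁ = k := swap_apply_left _ _
  refine ⟨(π₂ * π₁) * c * (π₂ * π₁)⁻¹, ?_, ?_⟩
  · rw [conj_pow, hc, mul_one, mul_inv_cancel]
  · have e : (π₂ * π₁)⁻¹ i = φ 0 := by
      rw [Equiv.Perm.inv_eq_iff_eq]
      simp [h1, h2]
    rw [Perm.mul_apply, Perm.mul_apply, e, hcφ, zero_add]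
    exact h3

theorem dd_inv (a : M → (ZMod p)ˣ) : (dd a⁻¹ : Perm (Pts M R p)) = (dd a)⁻¹ :=
  map_inv (ddHom (R := R) (p := p)) a

theorem tt_dd_conj (c : Perm M) (a : M → (ZMod p)ˣ) :
    (tt c * dd a * (tt c)⁻¹ : Perm (Pts M R p)) = dd (fun l => a (c⁻¹ l)) := by
  rw [mul_inv_eq_iff_eq_mul, tt, dd, dd, mon_mul, mon_mul]
  refine mon_congr (by simp) (fun i => by simp) (fun i => by simp)

/-- A pair of scalars is a product of two `p`-elements. -/
theorem dd_pair_mem (hp2 : p ≠ 2) (hm : p ≤ Fintype.card M) {i k : M} (hik : i ≠ k) (μ : (ZMod p)ˣ) :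
    (dd (Pi.mulSingle i μ * (Pi.mulSingle k μ)⁻¹) : Perm (Pts M R p)) ∈ CC p (BB : Subgroup (Perm (Pts M R p))) := by
  obtain ⟨c, hc, hci⟩ := exists_cycle (p := p) hm hik
  set a : M → (ZMod p)ˣ := Pi.mulSingle i μ with ha
  have e1 : (fun l => a (c⁻¹ l)) = Pi.mulSingle k μ := by
    ext l
    by_cases hl : l = k
    · subst hl
      have : c⁻¹ l = i := by
        rw [Equiv.Perm.inv_eq_iff_eq, hci]
      rw [this, ha]
      simp
    · have : c⁻¹ l ≠ i := by
        intro h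
        rw [Equiv.Perm.inv_eq_iff_eq, hci] at h
        exact hl h
      rw [ha, Pi.mulSingle_eq_of_ne this, Pi.mulSingle_eq_of_ne hl]
  have e2 : (dd (a * (Pi.mulSingle k μ)⁻¹) : Perm (Pts M R p)) = (dd a * tt c * (dd a)⁻¹) * (tt c)⁻¹ := by
    rw [dd_mul, dd_inv, ← e1, ← tt_dd_conj c a]
    group
  rw [e2]
  have htc : (tt c : Perm (Pts M R p)) ^ p = 1 := tt_pow_eq_one hc
  refine Subgroup.mul_mem _ (mem_CC ?_ ?_ ?_) (Subgroup.inv_mem _ (mem_CC ?_ (mon_mem_NB _ _ _) htc))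
  · exact sign_of_pow hp2 (by rw [conj_pow, htc, mul_one, mul_inv_cancel])
  · exact Subgroup.mul_mem _ (Subgroup.mul_mem _ (mon_mem_NB _ _ _) (mon_mem_NB _ _ _)) (Subgroup.inv_mem _ (mon_mem_NB _ _ _))
  · rw [conj_pow, htc, mul_one, mul_inv_cancel]
  · exact sign_of_pow hp2 htc

/-- Scalars with trivial product. -/
theorem dd_mem_of_prod (hp2 : p ≠ 2) (hm : p ≤ Fintype.card M) {a : M → (ZMod p)ˣ} (ha : ∏ i, a i = 1) :
    (dd a : Perm (Pts M R p)) ∈ CC p (BB : Subgroup (Perm (Pts M R p))) := by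
  have hpp := hp.out
  haveI : Nonempty M := by
    rw [← Fintype.card_pos_iff]
    have := hpp.pos
    omega
  obtain ⟨l₀⟩ := ‹Nonempty M›
  let D : Subgroup (M → (ZMod p)ˣ) := (CC p (BB : Subgroup (Perm (Pts M R p)))).comap (ddHom (R := R) (p := p))
  have e : a = ∏ l, (Pi.mulSingle l (a l) * (Pi.mulSingle l₀ (a l))⁻¹) := by
    ext x
    rw [Finset.prod_apply]
    simp only [Pi.mul_apply, Pi.inv_apply]
    rw [Finset.prod_mul_distrib, Finset.prod_inv_distrib, Finset.prod_eq_single x (fun l _ hl => Pi.mulSingle_eq_of_ne hl.symm _)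
      (fun h => absurd (Finset.mem_univ x) h), Pi.mulSingle_eq_same]
    by_cases hx : x = l₀
    · subst hx
      simp [ha]
    · simp [Pi.mulSingle_eq_of_ne hx]
  show a ∈ D
  rw [e]
  refine Subgroup.prod_mem _ (fun l _ => ?_)
  by_cases hl : l = l₀
  · subst hl
    rw [mul_inv_cancel]
    exact D.one_mem
  · exact dd_pair_mem hp2 hm hl _

/-- The sign of the scalars. -/
def ssgn : (ZMod p)ˣ →* ℤˣ where
  toFun a := sign (affP a 0)
  map_one' := by rw [affP_one_zero, map_one]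
  map_mul' a b := by
    rw [← map_mul]
    congr 1
    ext t
    simp [affP_apply, mul_assoc]

theorem sign_dd_of_prod {a : M → (ZMod p)ˣ} (ha : ∏ i, a i = 1) : sign (dd a : Perm (Pts M R p)) = 1 := by
  rw [dd, sign_fiber]
  have : ∏ i, sign (affP (a i) ((0 : M → ZMod p) i)) = ∏ i, ssgn (a i) := rfl
  rw [this, ← map_prod, ha, map_one]

/-- The key lemma for the first local subgroup. -/
theorem mon_mem_CC (hp2 : p ≠ 2) (hm : p ≤ Fintype.card M) {σ : Perm M} {a : M → (ZMod p)ˣ} {f : M → ZMod p} (ha : ∏ i, a i = 1)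
    (hA : (mon σ a f : Perm (Pts M R p)) ∈ alternatingGroup (Pts M R p)) :
    (mon σ a f : Perm (Pts M R p)) ∈ CC p (BB : Subgroup (Perm (Pts M R p))) := by
  have hpp := hp.out
  have hodd : Odd p := hpp.odd_of_ne_two hp2
  have hb : ∀ h : M → ZMod p, (bb h : Perm (Pts M R p)) ∈ CC p (BB : Subgroup (Perm (Pts M R p))) := fun h =>
    mem_CC (sign_of_pow hp2 (bb_pow_p h)) (mon_mem_NB _ _ _) (bb_pow_p h)
  have hs : sign (tt σ : Perm (Pts M R p)) = 1 := by
    have h1 : sign (mon σ a f : Perm (Pts M R p)) = 1 := hA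
    rw [mon_decomp, map_mul, map_mul, sign_dd_of_prod ha, sign_of_pow hp2 (bb_pow_p _), mul_one, mul_one] at h1
    exact h1
  have hσ : σ ∈ alternatingGroup M := by
    rw [sign_tt] at hs
    rcases Int.units_eq_one_or (sign σ) with h | h
    · exact h
    · rw [h, hodd.neg_one_pow] at hs
      exact absurd hs (by decide)
  have h2 : Subgroup.closure {s : Perm M | s ^ p = 1} ≤ (CC p (BB : Subgroup (Perm (Pts M R p)))).comap (ttHom (R := R) (p := p)) := by
    rw [Subgroup.closure_le]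
    intro s hs
    exact mem_CC (sign_tt_of_pow hs) (mon_mem_NB _ _ _) (tt_pow_eq_one hs)
  rw [mon_decomp]
  exact Subgroup.mul_mem _ (Subgroup.mul_mem _ (h2 (alt_le_closure hp2 hm hσ)) (dd_mem_of_prod hp2 hm ha)) (hb _)

/-- A criterion for normalizing a wreath product. -/
theorem mon_mem_N_wr {W : Subgroup (Perm M)} {σ : Perm M} (hσ : σ ∈ Subgroup.normalizer (W : Set (Perm M))) {a : M → (ZMod p)ˣ}
    (ha : ∀ w ∈ W, ∀ i, a (w i) = a i) (f : M → ZMod p) :
    (mon σ a f : Perm (Pts M R p)) ∈ Subgroup.normalizer ((wr W : Subgroup (Perm (Pts M R p))) : Set (Perm (Pts M R p))) := by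
  refine Subgroup.mem_normalizer_fintype ?_
  rintro _ ⟨w, hw, h, rfl⟩
  refine ⟨σ * w * σ⁻¹, (Subgroup.mem_normalizer_iff.1 hσ w).1 hw,
    fun j => (a (w (σ⁻¹ j)) : ZMod p) * h (σ⁻¹ j) + f (w (σ⁻¹ j)) - f (σ⁻¹ j), ?_⟩
  rw [mul_inv_eq_iff_eq_mul, mon_mul, mon_mul]
  refine mon_congr (by simp) (fun i => ?_) (fun i => ?_)
  · simp [ha w hw i]
  · simp

end Block

end Cfsg.Agent.Lib.Fusion.AltF
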