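/-
The second local subgroup for `p` odd: simultaneous transvections on two levels of the wreath product.
-/
import Cfsg.Agent.Lib.Fusion.AltF5

set_option autoImplicit false
set_option linter.unusedSectionVars false
set_option linter.unusedVariables false
set_option linter.unusedSimpArgs false
set_option linter.style.haveILetI false

namespace Cfsg.Agent.Lib.Fusion.AltF

open Equiv Equiv.Perm

variable {M' R' R : Type*} [Fintype M'] [DecidableEq M'] [Fintype R'] [DecidableEq R'] [Fintype R] [DecidableEq R] {p : ℕ} [hp : Fact p.Prime]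

/-- The underlying function of the transvection. -/
def e12f (O : Finset M') (c : ZMod p) (z : Pts (Pts M' R' p) R p) : Pts (Pts M' R' p) R p :=
  match z with
  | Sum.inl (Sum.inl (o, x), t) => if o ∈ O then Sum.inl (Sum.inl (o, x + c * t), t) else Sum.inl (Sum.inl (o, x), t)
  | z' => z'

theorem e12f_add (O : Finset M') (c c' : ZMod p) (z : Pts (Pts M' R' p) R p) : e12f O (c + c') z = e12f O c (e12f O c' z) := by
  rcases z with ⟨⟨o, x⟩ | r', t⟩ | r
  · by_cases ho : o ∈ O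
    · simp only [e12f, ho, if_true]
      have e : x + (c + c') * t = x + c' * t + c * t := by ring
      rw [e]
    · simp only [e12f, ho, if_false]
  · rfl
  · rfl

theorem e12f_zero (O : Finset M') (z : Pts (Pts M' R' p) R p) : e12f O 0 z = z := by
  rcases z with ⟨⟨o, x⟩ | r', t⟩ | r
  · by_cases ho : o ∈ O
    · simp [e12f, ho]
    · simp [e12f, ho]
  · rfl
  · rfl

/-- The transvection on the two lowest levels. -/
def e12 (O : Finset M') (c : ZMod p) : Perm (Pts (Pts M' R' p) R p) where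
  toFun := e12f O c
  invFun := e12f O (-c)
  left_inv z := by rw [← e12f_add, neg_add_cancel, e12f_zero]
  right_inv z := by rw [← e12f_add, add_neg_cancel, e12f_zero]

theorem e12_apply (O : Finset M') (c : ZMod p) (z : Pts (Pts M' R' p) R p) :
    (e12 O c : Perm (Pts (Pts M' R' p) R p)) z = e12f O c z := rfl

theorem e12_mem (O : Finset M') (c : ZMod p) {o : M'} (ho : o ∈ O) (x t : ZMod p) :
    (e12 O c : Perm (Pts (Pts M' R' p) R p)) (Sum.inl (Sum.inl (o, x), t)) = Sum.inl (Sum.inl (o, x + c * t), t) := by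
  rw [e12_apply]
  simp [e12f, ho]

theorem e12_not (O : Finset M') (c : ZMod p) {o : M'} (ho : o ∉ O) (x t : ZMod p) :
    (e12 O c : Perm (Pts (Pts M' R' p) R p)) (Sum.inl (Sum.inl (o, x), t)) = Sum.inl (Sum.inl (o, x), t) := by
  rw [e12_apply]
  simp [e12f, ho]

theorem e12_r (O : Finset M') (c : ZMod p) (r' : R') (t : ZMod p) :
    (e12 O c : Perm (Pts (Pts M' R' p) R p)) (Sum.inl (Sum.inr r', t)) = Sum.inl (Sum.inr r', t) := rfl

theorem e12_inr (O : Finset M') (c : ZMod p) (r : R) :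
    (e12 O c : Perm (Pts (Pts M' R' p) R p)) (Sum.inr r) = Sum.inr r := rfl

theorem e12_mul (O : Finset M') (c c' : ZMod p) :
    (e12 O (c + c') : Perm (Pts (Pts M' R' p) R p)) = e12 O c * e12 O c' := by
  ext1 z
  exact e12f_add O c c' z

theorem e12_pow (O : Finset M') (c : ZMod p) (n : ℕ) :
    (e12 O c : Perm (Pts (Pts M' R' p) R p)) ^ n = e12 O (n • c) := by
  induction n with
  | zero =>
    ext1 z
    simp only [pow_zero, zero_smul]
    exact (e12f_zero O z).symm
  | succ n ih => rw [pow_succ, ih, ← e12_mul, succ_nsmul]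

theorem e12_pow_p (O : Finset M') (c : ZMod p) : (e12 O c : Perm (Pts (Pts M' R' p) R p)) ^ p = 1 := by
  rw [e12_pow]
  have : p • c = 0 := by simp
  rw [this]
  ext1 z
  exact e12f_zero O z

/-- The function used for the other transvection. -/
def phi21 (O : Finset M') (c : ZMod p) : Pts M' R' p → ZMod p :=
  Sum.elim (fun q => if q.1 ∈ O then c * q.2 else 0) (fun _ => 0)

/-- The other transvection. -/
abbrev e21 (O : Finset M') (c : ZMod p) : Perm (Pts (Pts M' R' p) R p) := bb (phi21 O c)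

theorem e21_mem (O : Finset M') (c : ZMod p) {o : M'} (ho : o ∈ O) (x t : ZMod p) :
    (e21 O c : Perm (Pts (Pts M' R' p) R p)) (Sum.inl (Sum.inl (o, x), t)) = Sum.inl (Sum.inl (o, x), t + c * x) := by
  simp [phi21, ho]

theorem e21_not (O : Finset M') (c : ZMod p) {o : M'} (ho : o ∉ O) (x t : ZMod p) :
    (e21 O c : Perm (Pts (Pts M' R' p) R p)) (Sum.inl (Sum.inl (o, x), t)) = Sum.inl (Sum.inl (o, x), t) := by
  simp [phi21, ho]

theorem e21_r (O : Finset M') (c : ZMod p) (r' : R') (t : ZMod p) :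
    (e21 O c : Perm (Pts (Pts M' R' p) R p)) (Sum.inl (Sum.inr r', t)) = Sum.inl (Sum.inr r', t) := by
  simp [phi21]

theorem e12_norm (O : Finset M') (c : ZMod p) :
    (e12 O c : Perm (Pts (Pts M' R' p) R p)) ∈ Subgroup.normalizer ((RS O : Subgroup (Perm (Pts (Pts M' R' p) R p))) : Set (Perm (Pts (Pts M' R' p) R p))) := by
  refine Subgroup.mem_normalizer_fintype ?_
  rintro _ ⟨g, f, h1, h2, rfl⟩
  refine ⟨fun o => g o + c * (if o ∈ O then f (Sum.inl (o, 0)) else 0), f, fun o ho => ?_, h2, ?_⟩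
  · simp [ho, h1 o ho]
  · rw [mul_inv_eq_iff_eq_mul]
    refine mon_ext (fun i t => ?_) (fun r => rfl)
    rcases i with ⟨o, x⟩ | r'
    · by_cases ho : o ∈ O
      · simp only [Perm.mul_apply, mon_inl, Pi.one_apply, Units.val_one, one_mul, e12_mem _ _ ho, if_pos ho, Perm.one_apply]
        rw [h2 o ho (x + c * t) x, h2 o ho 0 x]
        have e : x + g o + c * (t + f (Sum.inl (o, x))) = x + c * t + (g o + c * f (Sum.inl (o, x))) := by ring
        rw [e]
      · simp only [Perm.mul_apply, mon_inl, Pi.one_apply, Units.val_one, one_mul, e12_not _ _ ho, if_neg ho, h1 o ho, mul_zero, add_zero, Perm.one_apply]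
    · simp only [Perm.mul_apply, mon_inl, e12_r, Pi.one_apply, Units.val_one, one_mul, mon_inr, Perm.one_apply]

theorem e21_norm (O : Finset M') (c : ZMod p) :
    (e21 O c : Perm (Pts (Pts M' R' p) R p)) ∈ Subgroup.normalizer ((RS O : Subgroup (Perm (Pts (Pts M' R' p) R p))) : Set (Perm (Pts (Pts M' R' p) R p))) := by
  refine Subgroup.mem_normalizer_fintype ?_
  rintro _ ⟨g, f, h1, h2, rfl⟩
  refine ⟨g, fun i => f i + Sum.elim (fun q => if q.1 ∈ O then c * g q.1 else 0) (fun _ => 0) i, h1, fun o ho x x' => ?_, ?_⟩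
  · simp only [Sum.elim_inl, ho, if_true]
    rw [h2 o ho x x']
  · rw [mul_inv_eq_iff_eq_mul]
    refine mon_ext (fun i t => ?_) (fun r => rfl)
    rcases i with ⟨o, x⟩ | r'
    · by_cases ho : o ∈ O
      · simp only [Perm.mul_apply, Perm.one_apply, e21_mem _ _ ho, mon_inl, Pi.one_apply, Units.val_one, one_mul, if_pos ho, Sum.elim_inl]
        have e : t + f (Sum.inl (o, x)) + c * (x + g o) = t + c * x + (f (Sum.inl (o, x)) + c * g o) := by ring
        rw [e]
      · simp only [Perm.mul_apply, Perm.one_apply, e21_not _ _ ho, mon_inl, Pi.one_apply, Units.val_one, one_mul, if_neg ho, Sum.elim_inl, add_zero, h1 o ho]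
    · simp only [Perm.mul_apply, Perm.one_apply, mon_inl, e21_r, Pi.one_apply, Units.val_one, one_mul, mon_inr, Sum.elim_inr, add_zero]
      simp [phi21]

/-- Scalars on the second level. -/
def aa2 (O : Finset M') (a : (ZMod p)ˣ) : M' → (ZMod p)ˣ := fun o => if o ∈ O then a⁻¹ else 1

/-- Scalars on the first level. -/
def ss1 (O : Finset M') (a : (ZMod p)ˣ) : Pts M' R' p → (ZMod p)ˣ :=
  Sum.elim (fun q => if q.1 ∈ O then a else 1) (fun _ => 1)

/-- The diagonal element. -/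
def xx (O : Finset M') (a : (ZMod p)ˣ) : Perm (Pts (Pts M' R' p) R p) := mon (dd (aa2 O a)) (ss1 O a) 0

theorem xx_eq (O : Finset M') (a : (ZMod p)ˣ) :
    (xx O a : Perm (Pts (Pts M' R' p) R p)) =
      e12 O (((a⁻¹ : (ZMod p)ˣ) : ZMod p) - 1) * e21 O 1 * e12 O ((a : ZMod p) - 1) * e21 O (-((a⁻¹ : (ZMod p)ˣ) : ZMod p)) := by
  have hαβ : ((a⁻¹ : (ZMod p)ˣ) : ZMod p) * (a : ZMod p) = 1 := Units.inv_mul a
  set α : ZMod p := ((a⁻¹ : (ZMod p)ˣ) : ZMod p) with hα
  set β : ZMod p := (a : ZMod p) with hβ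
  refine mon_ext (fun i t => ?_) (fun r => rfl)
  rcases i with ⟨o, x⟩ | r'
  · by_cases ho : o ∈ O
    · simp only [Perm.mul_apply, e21_mem _ _ ho, e12_mem _ _ ho]
      simp only [xx, mon_inl, aa2, ss1, ho, if_true, Sum.elim_inl, Pi.zero_apply, add_zero, mul_zero, Perm.one_apply]
      rw [← hα, ← hβ]
      have e1 : α * x = x + (β - 1) * (t + -α * x) + (α - 1) * (t + -α * x + 1 * (x + (β - 1) * (t + -α * x))) := by
        linear_combination (-(t - α * x)) * hαβ
      have e2 : β * t = t + -α * x + 1 * (x + (β - 1) * (t + -α * x)) := by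
        linear_combination x * hαβ
      rw [← e1, ← e2]
    · simp only [Perm.mul_apply, e21_not _ _ ho, e12_not _ _ ho]
      simp [xx, aa2, ss1, ho]
  · simp only [Perm.mul_apply, e21_r, e12_r]
    simp [xx, ss1]

theorem xx_mem_CC (hp2 : p ≠ 2) (O : Finset M') (a : (ZMod p)ˣ) :
    (xx O a : Perm (Pts (Pts M' R' p) R p)) ∈ CC p (RS O : Subgroup (Perm (Pts (Pts M' R' p) R p))) := by
  rw [xx_eq]
  have h12 : ∀ c : ZMod p, (e12 O c : Perm (Pts (Pts M' R' p) R p)) ∈ CC p (RS O : Subgroup (Perm (Pts (Pts M' R' p) R p))) := fun c =>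
    mem_CC (sign_of_pow hp2 (e12_pow_p O c)) (e12_norm O c) (e12_pow_p O c)
  have h21 : ∀ c : ZMod p, (e21 O c : Perm (Pts (Pts M' R' p) R p)) ∈ CC p (RS O : Subgroup (Perm (Pts (Pts M' R' p) R p))) := fun c =>
    mem_CC (sign_of_pow hp2 (bb_pow_p _)) (e21_norm O c) (bb_pow_p _)
  exact Subgroup.mul_mem _ (Subgroup.mul_mem _ (Subgroup.mul_mem _ (h12 _) (h21 _)) (h12 _)) (h21 _)

theorem units_pow_card (a : (ZMod p)ˣ) : a ^ p = a := by
  ext
  push_cast
  exact ZMod.pow_card _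

theorem units_pow_pow_card (a : (ZMod p)ˣ) (k : ℕ) : a ^ p ^ k = a := by
  induction k with
  | zero => simp
  | succ k ih => rw [pow_succ, pow_mul, ih, units_pow_card]

theorem prod_ss1 (O : Finset M') (a : (ZMod p)ˣ) {k : ℕ} (hO : O.card = p ^ k) : ∏ i, ss1 (R' := R') O a i = a := by
  rw [Fintype.prod_sum_type, Fintype.prod_prod_type]
  simp only [ss1, Sum.elim_inl, Sum.elim_inr, Finset.prod_const_one, mul_one]
  have : ∀ x : M', ∏ y : ZMod p, (if x ∈ O then a else 1) = (if x ∈ O then a else 1) ^ p := by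
    intro x
    rw [Finset.prod_const, Finset.card_univ, ZMod.card]
  simp_rw [this]
  rw [Finset.prod_pow, Finset.prod_ite_mem, Finset.univ_inter, Finset.prod_const, hO, units_pow_pow_card, units_pow_card]

section Cover

variable {W' : Subgroup (Perm M')} {O : Finset M'}

theorem aa2_inv (hO : ∀ w ∈ W', ∀ o ∈ O, w o ∈ O) (a : (ZMod p)ˣ) (w : Perm M') (hw : w ∈ W') (o : M') :
    aa2 O a (w o) = aa2 O a o := by
  by_cases ho : o ∈ O
  · simp [aa2, ho, hO w hw o ho]
  · have : w o ∉ O := by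
      intro h
      have h2 := hO w⁻¹ (W'.inv_mem hw) _ h
      have e : w⁻¹ (w o) = o := w.symm_apply_apply o
      rw [e] at h2
      exact ho h2
    simp [aa2, ho, this]

theorem ss1_inv (hO : ∀ w ∈ W', ∀ o ∈ O, w o ∈ O) (a : (ZMod p)ˣ) (w : Perm (Pts M' R' p)) (hw : w ∈ (wr W' : Subgroup (Perm (Pts M' R' p)))) (i : Pts M' R' p) :
    ss1 O a (w i) = ss1 O a i := by
  obtain ⟨w', hw', f, rfl⟩ := hw
  rcases i with ⟨o, x⟩ | r'
  · by_cases ho : o ∈ O
    · simp [ss1, ho, hO w' hw' o ho]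
    · have : w' o ∉ O := by
        intro h
        have h2 := hO w'⁻¹ (W'.inv_mem hw') _ h
        have e : w'⁻¹ (w' o) = o := w'.symm_apply_apply o
        rw [e] at h2
        exact ho h2
      simp [ss1, ho, this]
  · rfl

theorem xx_norm (hO : ∀ w ∈ W', ∀ o ∈ O, w o ∈ O) (a : (ZMod p)ˣ) :
    (xx O a : Perm (Pts (Pts M' R' p) R p)) ∈ Subgroup.normalizer ((wr (wr W') : Subgroup (Perm (Pts (Pts M' R' p) R p))) : Set (Perm (Pts (Pts M' R' p) R p))) := by
  refine mon_mem_N_wr ?_ (ss1_inv hO a) 0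
  exact mon_mem_N_wr (Subgroup.one_mem _) (aa2_inv hO a) 0

/-- The cover of the normalizer, `p` odd. -/
theorem hK_odd [Subsingleton R] (hp2 : p ≠ 2) (hW' : Good p W') (hm : p ≤ Fintype.card (Pts M' R' p))
    (hO : ∀ w ∈ W', ∀ o ∈ O, w o ∈ O) {k : ℕ} (hOc : O.card = p ^ k)
    {y : Perm (Pts (Pts M' R' p) R p)} (hyA : y ∈ alternatingGroup (Pts (Pts M' R' p) R p))
    (hy : y ∈ Subgroup.normalizer ((wr (wr W') : Subgroup (Perm (Pts (Pts M' R' p) R p))) : Set (Perm (Pts (Pts M' R' p) R p)))) :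
    y ∈ Subgroup.closure {w | w ∈ alternatingGroup (Pts (Pts M' R' p) R p) ∧
      w ∈ Subgroup.normalizer ((wr (wr W') : Subgroup (Perm (Pts (Pts M' R' p) R p))) : Set (Perm (Pts (Pts M' R' p) R p))) ∧
      (w ∈ CC p (BB : Subgroup (Perm (Pts (Pts M' R' p) R p))) ∨ w ∈ CC p (RS O : Subgroup (Perm (Pts (Pts M' R' p) R p))))} := by
  have hnf : ∀ {y : Perm (Pts (Pts M' R' p) R p)}, y ∈ Subgroup.normalizer ((wr (wr W') : Subgroup (Perm (Pts (Pts M' R' p) R p))) : Set (Perm (Pts (Pts M' R' p) R p))) →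
      ∃ σ a f, y = mon σ a f := fun hy => nf_of_normalizes (W := wr W') (Q := wr (wr W')) (le_refl _) (fun i => bb_mem_wr _ _) hy
  obtain ⟨σ, a, f, rfl⟩ := hnf hy
  set α := ∏ i, a i with hα
  set x := (xx O α : Perm (Pts (Pts M' R' p) R p)) with hx
  have hxC : x ∈ CC p (RS O : Subgroup (Perm (Pts (Pts M' R' p) R p))) := xx_mem_CC hp2 O α
  have hxN : x ∈ Subgroup.normalizer ((wr (wr W') : Subgroup (Perm (Pts (Pts M' R' p) R p))) : Set (Perm (Pts (Pts M' R' p) R p))) := xx_norm hO α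
  have hxA : x ∈ alternatingGroup (Pts (Pts M' R' p) R p) := by
    have : CC p (RS O : Subgroup (Perm (Pts (Pts M' R' p) R p))) ≤ alternatingGroup (Pts (Pts M' R' p) R p) := by
      rw [CC, Subgroup.closure_le]
      rintro g ⟨h, -⟩
      exact h
    exact this hxC
  obtain ⟨y₂, hy₂⟩ : ∃ y₂, y₂ = (mon σ a f : Perm (Pts (Pts M' R' p) R p)) * x⁻¹ := ⟨_, rfl⟩
  have hy₂N : y₂ ∈ Subgroup.normalizer ((wr (wr W') : Subgroup (Perm (Pts (Pts M' R' p) R p))) : Set (Perm (Pts (Pts M' R' p) R p))) := by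
    rw [hy₂]
    exact Subgroup.mul_mem _ hy (Subgroup.inv_mem _ hxN)
  have hy₂A : y₂ ∈ alternatingGroup (Pts (Pts M' R' p) R p) := by
    rw [hy₂]
    exact Subgroup.mul_mem _ hyA (Subgroup.inv_mem _ hxA)
  obtain ⟨σ₂, a₂, f₂, hf₂⟩ := hnf hy₂N
  have he : (mon σ a f : Perm (Pts (Pts M' R' p) R p)) = y₂ * x := by
    rw [hy₂]
    group
  have hprod : ∏ i, a₂ i = 1 := by
    rw [hf₂, hx, xx, mon_mul] at he
    obtain ⟨-, e2, -⟩ := mon_inj he
    have e3 : α = (∏ i, a₂ ((dd (aa2 O α) : Perm (Pts M' R' p)) i)) * ∏ i, ss1 (R' := R') O α i := by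
      have e4 : ∏ i, a i = ∏ i, (a₂ ((dd (aa2 O α) : Perm (Pts M' R' p)) i) * ss1 (R' := R') O α i) :=
        congrArg (fun g : Pts M' R' p → (ZMod p)ˣ => ∏ i, g i) e2
      rw [Finset.prod_mul_distrib] at e4
      exact e4
    rw [Equiv.prod_comp (dd (aa2 O α) : Perm (Pts M' R' p)) a₂, prod_ss1 O α hOc] at e3
    exact (mul_eq_right.1 e3.symm)
  have hy₂C : y₂ ∈ CC p (BB : Subgroup (Perm (Pts (Pts M' R' p) R p))) := by
    rw [hf₂] at hy₂A ⊢
    exact mon_mem_CC hp2 hm hprod hy₂A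
  rw [he]
  exact Subgroup.mul_mem _ (Subgroup.subset_closure ⟨hy₂A, hy₂N, Or.inl hy₂C⟩) (Subgroup.subset_closure ⟨hxA, hxN, Or.inr hxC⟩)

end Cover

end Cfsg.Agent.Lib.Fusion.AltF
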