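/-
The fusion system of a quotient by a central subgroup of a group with constrained fusion system is constrained.
-/
import Cfsg.Agent.Lib.Fusion.Model3
import Cfsg.Agent.Lib.Fusion.Realized

set_option autoImplicit false
set_option linter.unusedSectionVars false
set_option linter.style.haveILetI false

namespace Cfsg.Agent.Lib.Fusion

open Cfsg Cfsg.FusionSystem

variable {A : Type*} [Group A] [Finite A] {p : ℕ} [hp : Fact p.Prime]

/-- A `p`-element whose image in the quotient by a central subgroup lies in the image of a Sylow subgroup lies in the Sylow. -/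
theorem mem_sylow_of_quot (T : Sylow p A) (Z : Subgroup A) [hZn : Z.Normal] (hZ : Z ≤ Subgroup.center A) {y : A}
    (hy : IsPGroup p (Subgroup.zpowers y)) (hyT : (QuotientGroup.mk' Z) y ∈ (T : Subgroup A).map (QuotientGroup.mk' Z)) : y ∈ (T : Subgroup A) := by
  obtain ⟨t, ht, hty⟩ := hyT
  have hz : t⁻¹ * y ∈ Z := by
    have : (QuotientGroup.mk' Z) (t⁻¹ * y) = 1 := by
      rw [map_mul, map_inv, hty, inv_mul_cancel]
    exact (QuotientGroup.eq_one_iff _).1 this
  have hn : y ∈ Subgroup.normalizer ((T : Subgroup A) : Set A) := by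
    have e : y = t * (t⁻¹ * y) := by group
    rw [e]
    refine Subgroup.mul_mem _ (Subgroup.le_normalizer ht) ?_
    rw [Subgroup.mem_normalizer_iff]
    intro x
    have hc := (Subgroup.mem_center_iff.1 (hZ hz)) x
    have e2 : (t⁻¹ * y) * x * (t⁻¹ * y)⁻¹ = x := by
      rw [← hc]
      group
    rw [e2]
  have h1 := hy.inf_normalizer_sylow T
  exact (h1.le ⟨Subgroup.mem_zpowers y, hn⟩).2

theorem isConstrained_quot_center (T : Sylow p A) (Z : Subgroup A) [hZn : Z.Normal] (hZ : Z ≤ Subgroup.center A)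
    (hF : (groupFusionSystem (T : Subgroup A)).IsConstrained p) :
    (groupFusionSystem ((T : Subgroup A).map (QuotientGroup.mk' Z))).IsConstrained p := by
  have hpT : IsPGroup p (T : Subgroup A) := T.isPGroup'
  obtain ⟨M, _, ι, hfin, hreal, hTM, hcen⟩ := exists_model hpT hF
  have hι := hreal.1
  have hπs : Function.Surjective (QuotientGroup.mk' Z) := QuotientGroup.mk'_surjective Z
  set π := QuotientGroup.mk' Z with hπ
  -- the normal subgroup
  obtain ⟨TM, hTMv⟩ := hTM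
  have hOT : (pCore p M : Subgroup M) ≤ ι.range := by
    rw [← hTMv]
    exact Cfsg.Agent.Lib.Basic.normal_pGroup_le_sylow (Cfsg.Agent.Lib.Basic.pCore_normal p)
      (Cfsg.Agent.Lib.Basic.pCore_isPGroup p) TM
  set Q := pullback ι (pCore p M) with hQdef
  have hn : (groupFusionSystem (T : Subgroup A)).IsNormal Q := isNormal_pullback hreal (Cfsg.Agent.Lib.Basic.pCore_normal p) hOT
  -- central elements
  have hZM : ∀ (z : A) (hzT : z ∈ (T : Subgroup A)), z ∈ Z → ∀ m : M, m * ι ⟨z, hzT⟩ * m⁻¹ = ι ⟨z, hzT⟩ := by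
    intro z hzT hzZ m
    have hO : ∀ (z : A) (hzT : z ∈ (T : Subgroup A)), z ∈ Z → ι ⟨z, hzT⟩ ∈ (pCore p M : Subgroup M) := by
      intro z hzT hzZ
      refine hcen ?_
      rw [Subgroup.mem_centralizer_iff]
      intro o ho
      obtain ⟨⟨x, hxT⟩, hx⟩ := hOT ho
      rw [← hx, ← map_mul, ← map_mul]
      congr 1
      apply Subtype.ext
      exact (Subgroup.mem_center_iff.1 (hZ hzZ) x)
    let P : Subgroup A := (T : Subgroup A) ⊓ Z
    let j : P →* ι.range := (((MulAut.conj m).toMonoidHom.comp ι).comp (Subgroup.inclusion (inf_le_left : P ≤ (T : Subgroup A)))).codRestrict _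
      (fun x => hOT ((Cfsg.Agent.Lib.Basic.pCore_normal p).conj_mem _ (hO x x.2.1 x.2.2) m))
    let φ : P →* A := (backMap hι).comp j
    have hφS : ∀ x, φ x ∈ (T : Subgroup A) := fun x => backMap_mem hι _
    have hφm : φ ∈ (groupFusionSystem (T : Subgroup A)).Hom P :=
      (hreal.2 P inf_le_left φ hφS).2 ⟨m, fun x => iota_backMap hι _⟩
    obtain ⟨-, -, g, hg⟩ := hφm
    have h1 : ι ⟨φ ⟨z, hzT, hzZ⟩, hφS _⟩ = m * ι ⟨z, hzT⟩ * m⁻¹ := iota_backMap hι _
    rw [← h1]
    congr 1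
    apply Subtype.ext
    show φ ⟨z, hzT, hzZ⟩ = z
    rw [hg]
    show g * z * g⁻¹ = z
    rw [(Subgroup.mem_center_iff.1 (hZ hzZ) g)]
    group
  -- the key property of `Q`
  have hW : ∀ t ∈ (T : Subgroup A), (∀ q ∈ Q, t * q * t⁻¹ * q⁻¹ ∈ Z) → t ∈ Q := by
    intro t htT htq
    -- the image of `T ⊓ Z`
    let Z' : Subgroup M := ((T : Subgroup A) ⊓ Z).subgroupOf (T : Subgroup A) |>.map ι
    have hZ'c : ∀ z ∈ Z', ∀ m : M, m * z * m⁻¹ = z := by
      rintro _ ⟨⟨z, hzT⟩, hz, rfl⟩ m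
      exact hZM z hzT hz.2 m
    have hZ'p : IsPGroup p Z' := (hpT.to_subgroup _).map ι
    let W : Subgroup M :=
      { carrier := {m | ∀ o ∈ (pCore p M : Subgroup M), m * o * m⁻¹ * o⁻¹ ∈ Z'}
        one_mem' := by
          intro o ho
          simp [Z'.one_mem]
        mul_mem' := by
          intro a b ha hb o ho
          have h1 := ha o ho
          have h2 := hb o ho
          have e : a * b * o * (a * b)⁻¹ * o⁻¹ = (a * (b * o * b⁻¹ * o⁻¹) * a⁻¹) * (a * o * a⁻¹ * o⁻¹) := by group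
          rw [e, hZ'c _ h2 a]
          exact Z'.mul_mem h2 h1
        inv_mem' := by
          intro a ha o ho
          have ho' : a⁻¹ * o * a ∈ (pCore p M : Subgroup M) := by
            have := (Cfsg.Agent.Lib.Basic.pCore_normal p).conj_mem o ho a⁻¹
            simpa using this
          have h1 := ha _ ho'
          have e : a⁻¹ * o * a⁻¹⁻¹ * o⁻¹ = (a * (a⁻¹ * o * a) * a⁻¹ * (a⁻¹ * o * a)⁻¹)⁻¹ := by
            group
          rw [e]
          exact Z'.inv_mem h1 }
    have hWn : W.Normal := by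
      constructor
      intro m hm c o ho
      have ho' : c⁻¹ * o * c ∈ (pCore p M : Subgroup M) := by
        have := (Cfsg.Agent.Lib.Basic.pCore_normal p).conj_mem o ho c⁻¹
        simpa using this
      have h1 := hm _ ho'
      have e : (c * m * c⁻¹) * o * (c * m * c⁻¹)⁻¹ * o⁻¹ = c * (m * (c⁻¹ * o * c) * m⁻¹ * (c⁻¹ * o * c)⁻¹) * c⁻¹ := by
        group
      rw [e, hZ'c _ h1 c]
      exact h1
    have hWp : IsPGroup p W := by
      rintro ⟨m, hm⟩
      obtain ⟨e, he⟩ := IsPGroup.iff_card.1 hZ'p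
      have hpow : ∀ n : ℕ, ∀ o ∈ (pCore p M : Subgroup M), m ^ n * o * (m ^ n)⁻¹ = (m * o * m⁻¹ * o⁻¹) ^ n * o := by
        intro n
        induction n with
        | zero => intro o ho; simp
        | succ n ih =>
          intro o ho
          have h1 := hm o ho
          have ih' := ih o ho
          generalize hz : m * o * m⁻¹ * o⁻¹ = z at h1 ih' ⊢
          have e2 : m * o * m⁻¹ = z * o := by
            rw [← hz]
            group
          calc m ^ (n + 1) * o * (m ^ (n + 1))⁻¹ = m ^ n * (m * o * m⁻¹) * (m ^ n)⁻¹ := by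
                rw [pow_succ]
                group
            _ = (m ^ n * z * (m ^ n)⁻¹) * (m ^ n * o * (m ^ n)⁻¹) := by
                rw [e2]
                group
            _ = z ^ (n + 1) * o := by
                rw [hZ'c _ h1, ih', pow_succ', mul_assoc]
      obtain ⟨o₀, ho₀⟩ : ∃ n : ℕ, m ^ (p ^ e) ∈ (pCore p M : Subgroup M) := by
        refine ⟨0, hcen ?_⟩
        rw [Subgroup.mem_centralizer_iff]
        intro o ho
        have h1 := hpow (p ^ e) o ho
        have h2 : (m * o * m⁻¹ * o⁻¹) ^ (p ^ e) = 1 := by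
          have h3 := pow_card_eq_one' (G := Z') (x := ⟨_, hm o ho⟩)
          rw [he] at h3
          exact congrArg Subtype.val h3
        rw [h2, one_mul] at h1
        have h4 : m ^ p ^ e * o = o * m ^ p ^ e := by
          calc m ^ p ^ e * o = m ^ p ^ e * o * (m ^ p ^ e)⁻¹ * m ^ p ^ e := by group
            _ = o * m ^ p ^ e := by rw [h1]
        exact h4.symm
      obtain ⟨k, hk⟩ := (Cfsg.Agent.Lib.Basic.pCore_isPGroup p) ⟨_, ho₀⟩
      refine ⟨e + k, Subtype.ext ?_⟩
      have h5 : (m ^ p ^ e) ^ p ^ k = 1 := congrArg Subtype.val hk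
      show m ^ p ^ (e + k) = 1
      rw [pow_add, pow_mul, h5]
    have hWle : W ≤ pCore p M := Cfsg.Agent.Lib.Basic.le_pCore hWn hWp
    refine mem_pullback.2 ⟨htT, hWle ?_⟩
    intro o ho
    obtain ⟨⟨x, hxT⟩, hx⟩ := hOT ho
    have hxQ : x ∈ Q := mem_pullback.2 ⟨hxT, by rw [hx]; exact ho⟩
    have h1 := htq x hxQ
    have hmem : t * x * t⁻¹ * x⁻¹ ∈ (T : Subgroup A) :=
      (T : Subgroup A).mul_mem ((T : Subgroup A).mul_mem ((T : Subgroup A).mul_mem htT hxT) ((T : Subgroup A).inv_mem htT)) ((T : Subgroup A).inv_mem hxT)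
    refine ⟨⟨_, hmem⟩, ⟨hmem, h1⟩, ?_⟩
    rw [← hx, ← map_inv, ← map_inv, ← map_mul, ← map_mul, ← map_mul]
    rfl
  -- elements conjugate into `T`
  have hconjT : ∀ (g x : A), x ∈ (T : Subgroup A) → π (g * x * g⁻¹) ∈ (T : Subgroup A).map π → g * x * g⁻¹ ∈ (T : Subgroup A) := by
    intro g x hx h
    refine mem_sylow_of_quot T Z hZ ?_ h
    have hxp : IsPGroup p (Subgroup.zpowers x) := by
      have : Subgroup.zpowers x ≤ (T : Subgroup A) := by
        rw [Subgroup.zpowers_le]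
        exact hx
      exact hpT.to_le this
    have e : Subgroup.zpowers (g * x * g⁻¹) = (Subgroup.zpowers x).map (MulAut.conj g).toMonoidHom :=
      (MonoidHom.map_zpowers (MulAut.conj g).toMonoidHom x).symm
    rw [e]
    exact hxp.map _
  have hlift : ∀ y ∈ (T : Subgroup A).map π, ∃ x ∈ (T : Subgroup A), π x = y := by
    rintro _ ⟨x, hx, rfl⟩
    exact ⟨x, hx, rfl⟩
  have hsat : (groupFusionSystem ((T : Subgroup A).map π)).IsSaturated p := by
    have := isSaturated_gfs (T.mapSurjective hπs)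
    rwa [Sylow.coe_mapSurjective] at this
  have hQT : Q ≤ (T : Subgroup A) := hn.1
  have hQbar : (groupFusionSystem ((T : Subgroup A).map π)).IsNormal (Q.map π) := by
    refine ⟨Subgroup.map_mono hQT, fun Pb φb hφb => ?_⟩
    obtain ⟨hPb, hvalb, gb, hgb⟩ := hφb
    obtain ⟨g, rfl⟩ := hπs gb
    let P : Subgroup A := Pb.comap π ⊓ (T : Subgroup A)
    have hPT : P ≤ (T : Subgroup A) := inf_le_right
    have hφ : conjHom P g ∈ (groupFusionSystem (T : Subgroup A)).Hom P := by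
      refine ⟨hPT, fun x => ?_, g, fun x => rfl⟩
      refine hconjT g x (hPT x.2) ?_
      have h1 := hvalb ⟨π x, x.2.1⟩
      rw [hgb] at h1
      rw [map_mul, map_mul, map_inv]
      exact h1
    obtain ⟨ψ, ⟨hψle, hψT, g', hψv⟩, hag, hmap⟩ := hn.2 P _ hφ
    have hsup : Pb ⊔ Q.map π ≤ (P ⊔ Q).map π := by
      refine sup_le (fun y hy => ?_) ?_
      · obtain ⟨x, hx, rfl⟩ := hlift y (hPb hy)
        exact ⟨x, (le_sup_left : P ≤ P ⊔ Q) ⟨hy, hx⟩, rfl⟩
      · exact Subgroup.map_mono le_sup_right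
    have hval : ∀ w : ↥(P ⊔ Q), π g' * π w * (π g')⁻¹ ∈ (T : Subgroup A).map π := by
      intro w
      refine ⟨ψ w, hψT w, ?_⟩
      rw [hψv, map_mul, map_mul, map_inv]
    refine ⟨conjHom (Pb ⊔ Q.map π) (π g'), ⟨sup_le hPb (Subgroup.map_mono hQT), fun y => ?_, π g', fun y => rfl⟩, fun y => ?_, ?_⟩
    · obtain ⟨w, hw, hwy⟩ := hsup y.2
      show π g' * y * (π g')⁻¹ ∈ _
      rw [← hwy]
      exact hval ⟨w, hw⟩
    · obtain ⟨x, hx, hxy⟩ := hlift y (hPb y.2)
      have hxP : x ∈ P := ⟨by show π x ∈ Pb; rw [hxy]; exact y.2, hx⟩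
      have h1 := hag ⟨x, hxP⟩
      rw [hψv] at h1
      have h2 : g' * x * g'⁻¹ = g * x * g⁻¹ := h1
      have h3 := congrArg π h2
      rw [map_mul, map_mul, map_mul, map_mul, map_inv, map_inv, hxy] at h3
      show π g' * y * (π g')⁻¹ = φb y
      rw [hgb, h3]
    · ext y
      constructor
      · rintro ⟨w, ⟨q, hq, hqw⟩, rfl⟩
        have hqX : q ∈ P ⊔ Q := (le_sup_right : Q ≤ P ⊔ Q) hq
        have h1 : ψ ⟨q, hqX⟩ ∈ (Q.subgroupOf (P ⊔ Q)).map ψ := ⟨⟨q, hqX⟩, hq, rfl⟩
        rw [hmap, hψv] at h1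
        refine ⟨_, h1, ?_⟩
        rw [map_mul, map_mul, map_inv, hqw]
        rfl
      · rintro ⟨q, hq, rfl⟩
        rw [← hmap] at hq
        obtain ⟨w, hw, rfl⟩ := hq
        refine ⟨⟨π w, (le_sup_right : Q.map π ≤ Pb ⊔ Q.map π) ⟨w, hw, rfl⟩⟩, ⟨w, hw, rfl⟩, ?_⟩
        rw [hψv]
        show π g' * π w * (π g')⁻¹ = _
        rw [map_mul, map_mul, map_inv]
  refine ⟨hsat, Q.map π, hQbar, Subgroup.map_mono hQT, fun Q' hQ' => ?_⟩
  have hQ'eq : Q' = Q.map π := by
    obtain ⟨φ, hφ, hr⟩ := hQ'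
    have h1 := map_eq_of_stronglyClosed (stronglyClosed_of_isNormal hQbar) le_rfl hφ
    rw [Subgroup.subgroupOf_self, ← MonoidHom.range_eq_map, hr] at h1
    exact h1
  rw [hQ'eq]
  rintro c ⟨hcS, hcC⟩
  obtain ⟨t, ht, rfl⟩ := hlift c hcS
  have hcC' : π t ∈ Subgroup.centralizer ((Q.map π : Subgroup _) : Set _) := hcC
  rw [Subgroup.mem_centralizer_iff] at hcC'
  refine ⟨t, hW t ht (fun q hq => ?_), rfl⟩
  have h1 := hcC' (π q) ⟨q, hq, rfl⟩
  refine (QuotientGroup.eq_one_iff _).1 ?_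
  show π (t * q * t⁻¹ * q⁻¹) = 1
  rw [map_mul, map_mul, map_mul, map_inv, map_inv, ← h1]
  group

end Cfsg.Agent.Lib.Fusion
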