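import Cfsg.Agent.Lib.Fusion.Hig11

/-!
# Higman's theorem: uniqueness of central extensions, and the structure of `suzukiTypeA`.
-/

namespace Cfsg.Agent.Lib.Fusion.Hig

open Subgroup

universe u v

section Ext

variable {P T : Type*} [Group P] [Group T] [Finite P] [Finite T] {A : Type*} [AddCommGroup A]

/-- **Uniqueness of central extensions with exponent two quotient** determined by the squaring map. -/
theorem iso_of_central_ext (a : P → A) (b : T → A) (ha : ∀ p p', a (p * p') = a p + a p')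
    (hb : ∀ t t', b (t * t') = b t + b t') (has : Function.Surjective a) (hbs : Function.Surjective b)
    (θ : P → T) (hθm : ∀ z z', a z = 0 → a z' = 0 → θ (z * z') = θ z * θ z')
    (hθb : ∀ z, a z = 0 → b (θ z) = 0) (hθi : ∀ z, a z = 0 → θ z = 1 → z = 1)
    (hθs : ∀ t, b t = 0 → ∃ z, a z = 0 ∧ θ z = t)
    (hcP : ∀ z, a z = 0 → ∀ p, z * p = p * z) (hcT : ∀ t, b t = 0 → ∀ t', t * t' = t' * t)
    (hsq : ∀ p t, a p = b t → a (p * p) = 0 ∧ t * t = θ (p * p)) : Nonempty (P ≃* T) := by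
  classical
  have ha1 : a 1 = 0 := by
    have := ha 1 1
    rw [mul_one] at this
    exact (add_eq_left.mp this.symm)
  have hb1 : b 1 = 0 := by
    have := hb 1 1
    rw [mul_one] at this
    exact (add_eq_left.mp this.symm)
  have hainv : ∀ p, a p⁻¹ = - a p := by
    intro p
    have := ha p⁻¹ p
    rw [inv_mul_cancel, ha1] at this
    exact eq_neg_of_add_eq_zero_left this.symm
  have hbinv : ∀ p, b p⁻¹ = - b p := by
    intro p
    have := hb p⁻¹ p
    rw [inv_mul_cancel, hb1] at this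
    exact eq_neg_of_add_eq_zero_left this.symm
  have hθ1 : θ 1 = 1 := by
    have := hθm 1 1 ha1 ha1
    rw [mul_one] at this
    exact (mul_eq_left.mp this.symm)
  have hθinv : ∀ z, a z = 0 → θ z⁻¹ = (θ z)⁻¹ := by
    intro z hz
    have h1 := hθm z⁻¹ z (by rw [hainv, hz, neg_zero]) hz
    rw [inv_mul_cancel, hθ1] at h1
    exact eq_inv_of_mul_eq_one_left h1.symm
  -- the fibre product
  let D₀ : Subgroup (P × T) :=
    { carrier := {d | a d.1 = b d.2}
      one_mem' := by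
        show a 1 = b 1
        rw [ha1, hb1]
      mul_mem' := by
        intro x y hx hy
        show a (x.1 * y.1) = b (x.2 * y.2)
        rw [ha, hb]
        exact congrArg₂ _ hx hy
      inv_mem' := by
        intro x hx
        show a x.1⁻¹ = b x.2⁻¹
        rw [hainv, hbinv]
        exact congrArg _ hx }
  -- the diagonal
  let Δ : Subgroup (P × T) :=
    { carrier := {d | a d.1 = 0 ∧ d.2 = θ d.1}
      one_mem' := ⟨ha1, hθ1.symm⟩
      mul_mem' := by
        rintro x y ⟨hx, hx2⟩ ⟨hy, hy2⟩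
        refine ⟨by show a (x.1 * y.1) = 0; rw [ha, hx, hy, add_zero], ?_⟩
        show x.2 * y.2 = θ (x.1 * y.1)
        rw [hθm _ _ hx hy, hx2, hy2]
      inv_mem' := by
        rintro x ⟨hx, hx2⟩
        refine ⟨by show a x.1⁻¹ = 0; rw [hainv, hx, neg_zero], ?_⟩
        show x.2⁻¹ = θ x.1⁻¹
        rw [hθinv _ hx, hx2] }
  have hΔD : Δ ≤ D₀ := by
    rintro x ⟨hx, hx2⟩
    show a x.1 = b x.2
    rw [hx, hx2, hθb _ hx]
  have hsqΔ : ∀ d ∈ D₀, d * d ∈ Δ := by
    intro d hd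
    obtain ⟨h1, h2⟩ := hsq d.1 d.2 hd
    exact ⟨h1, h2⟩
  have hΔc : ∀ δ ∈ Δ, ∀ g : P × T, δ * g = g * δ := by
    rintro δ ⟨hδ, hδ2⟩ g
    apply Prod.ext
    · exact hcP _ hδ _
    · exact hcT _ (by rw [hδ2]; exact hθb _ hδ) _
  have hcmΔ : ∀ g ∈ D₀, ∀ d ∈ D₀, cm g d ∈ Δ := by
    intro g hg d hd
    have h1 := hsqΔ _ (D₀.mul_mem hg hd)
    have h2 := Δ.inv_mem (hsqΔ _ hg)
    have h3 := Δ.inv_mem (hsqΔ _ hd)
    have e1 : cm g d = (g * (g * g)⁻¹) * (d * (d * d)⁻¹) * g * d := by unfold cm; group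
    rw [e1]
    generalize (g * g)⁻¹ = s' at h2
    generalize (d * d)⁻¹ = t' at h3
    have e2 : (g * s') * (d * t') * g * d = s' * t' * ((g * d) * (g * d)) := by
      calc (g * s') * (d * t') * g * d = (s' * g) * (t' * d) * g * d := by
            rw [hΔc _ h2 g, hΔc _ h3 d]
        _ = s' * (g * t') * d * g * d := by group
        _ = s' * (t' * g) * d * g * d := by rw [hΔc _ h3 g]
        _ = _ := by group
    rw [e2]
    exact Δ.mul_mem (Δ.mul_mem h2 h3) h1
  let 𝒮 : Set (Subgroup (P × T)) := {Γ | Δ ≤ Γ ∧ Γ ≤ D₀ ∧ ∀ z : P, (z, (1 : T)) ∈ Γ → z = 1}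
  have hΔ𝒮 : Δ ∈ 𝒮 := by
    refine ⟨le_rfl, hΔD, ?_⟩
    rintro z ⟨hz, hz2⟩
    exact hθi z hz hz2.symm
  obtain ⟨Γ, hΓ⟩ := (Set.toFinite 𝒮).exists_maximal ⟨Δ, hΔ𝒮⟩
  obtain ⟨hΔΓ, hΓD, hΓ1⟩ := hΓ.prop
  have hcover : ∀ d ∈ D₀, ∃ z, a z = 0 ∧ (z, (1 : T)) * d ∈ Γ := by
    intro d hd
    by_contra hno
    push Not at hno
    have hconj : ∀ γ ∈ Γ, d⁻¹ * γ * d ∈ Γ := by
      intro γ hγ
      have e : d⁻¹ * γ * d = γ * cm γ d := by unfold cm; group
      rw [e]
      exact Γ.mul_mem hγ (hΔΓ (hcmΔ _ (hΓD hγ) _ hd))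
    have hdd : d * d ∈ Γ := hΔΓ (hsqΔ _ hd)
    let Γ₁ : Subgroup (P × T) :=
      { carrier := {x | x ∈ Γ ∨ d⁻¹ * x ∈ Γ}
        one_mem' := Or.inl Γ.one_mem
        mul_mem' := by
          rintro x y (hx | hx) (hy | hy)
          · exact Or.inl (Γ.mul_mem hx hy)
          · right
            have e : d⁻¹ * (x * y) = (d⁻¹ * x * d) * (d⁻¹ * y) := by group
            rw [e]
            exact Γ.mul_mem (hconj _ hx) hy
          · right
            have e : d⁻¹ * (x * y) = (d⁻¹ * x) * y := by group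
            rw [e]
            exact Γ.mul_mem hx hy
          · left
            have e : x * y = (d * d) * (d⁻¹ * (d⁻¹ * x) * d) * (d⁻¹ * y) := by group
            rw [e]
            exact Γ.mul_mem (Γ.mul_mem hdd (hconj _ hx)) hy
        inv_mem' := by
          rintro x (hx | hx)
          · exact Or.inl (Γ.inv_mem hx)
          · right
            have e : d⁻¹ * x⁻¹ = (d⁻¹ * (d⁻¹ * x)⁻¹ * d) * (d * d)⁻¹ := by group
            rw [e]
            exact Γ.mul_mem (hconj _ (Γ.inv_mem hx)) (Γ.inv_mem hdd) }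
    have hΓ₁ : Γ₁ ∈ 𝒮 := by
      refine ⟨fun x hx => Or.inl (hΔΓ hx), ?_, ?_⟩
      · rintro x (hx | hx)
        · exact hΓD hx
        · have e : x = d * (d⁻¹ * x) := by group
          rw [e]
          exact D₀.mul_mem hd (hΓD hx)
      · rintro z (hz | hz)
        · exact hΓ1 z hz
        · exfalso
          have hzD : (z, (1 : T)) ∈ D₀ := by
            have e : (z, (1 : T)) = d * (d⁻¹ * (z, (1 : T))) := by group
            rw [e]
            exact D₀.mul_mem hd (hΓD hz)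
          have hz0 : a z = 0 := by
            have h1 : a z = b 1 := hzD
            rw [h1, hb1]
          have h2 := Γ.inv_mem hz
          have e : (d⁻¹ * (z, (1 : T)))⁻¹ = (z⁻¹, (1 : T)) * d := by
            rw [mul_inv_rev, inv_inv, Prod.inv_mk, inv_one]
          rw [e] at h2
          exact hno z⁻¹ (by rw [hainv, hz0, neg_zero]) h2
    have hle : Γ₁ ≤ Γ := hΓ.le_of_ge hΓ₁ (fun x hx => Or.inl hx)
    have hdΓ : d ∈ Γ := hle (Or.inr (by rw [inv_mul_cancel]; exact Γ.one_mem))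
    apply hno 1 ha1
    have e : ((1 : P), (1 : T)) * d = d := one_mul d
    rw [e]
    exact hdΓ
  have hex : ∀ p, ∃ t, (p, t) ∈ Γ := by
    intro p
    obtain ⟨t₀, ht₀⟩ := hbs (a p)
    obtain ⟨z, hz, hzd⟩ := hcover (p, t₀) ht₀.symm
    have hz' : a z⁻¹ = 0 := by rw [hainv, hz, neg_zero]
    have h1 : (z⁻¹, θ z⁻¹) ∈ Γ := hΔΓ ⟨hz', rfl⟩
    have h2 := Γ.mul_mem h1 hzd
    refine ⟨θ z⁻¹ * (1 * t₀), ?_⟩
    have e : (z⁻¹, θ z⁻¹) * ((z, (1 : T)) * (p, t₀)) = (p, θ z⁻¹ * (1 * t₀)) := by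
      apply Prod.ext
      · show z⁻¹ * (z * p) = p
        group
      · rfl
    rwa [e] at h2
  have huniq : ∀ p t t', (p, t) ∈ Γ → (p, t') ∈ Γ → t = t' := by
    intro p t t' h1 h2
    have h3 := Γ.mul_mem (Γ.inv_mem h1) h2
    have e : (p, t)⁻¹ * (p, t') = ((1 : P), t⁻¹ * t') := by
      apply Prod.ext
      · show p⁻¹ * p = 1
        group
      · rfl
    rw [e] at h3
    have h4 : a 1 = b (t⁻¹ * t') := hΓD h3
    rw [ha1] at h4
    obtain ⟨z, hz, hz2⟩ := hθs _ h4.symm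
    have h5 : (z, θ z) ∈ Γ := hΔΓ ⟨hz, rfl⟩
    have h6 := Γ.mul_mem h5 (Γ.inv_mem h3)
    have e2 : (z, θ z) * ((1 : P), t⁻¹ * t')⁻¹ = (z, (1 : T)) := by
      apply Prod.ext
      · show z * 1⁻¹ = z
        group
      · show θ z * (t⁻¹ * t')⁻¹ = 1
        rw [hz2]
        group
    rw [e2] at h6
    have h7 := hΓ1 z h6
    rw [h7] at hz2
    have h8 : θ 1 = 1 := hθ1
    rw [h8] at hz2
    have h9 : t⁻¹ * t' = 1 := hz2.symm
    exact inv_mul_eq_one.mp h9
  choose f hf using hex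
  let f' : P →* T := MonoidHom.mk' f (fun p p' => by
    apply huniq (p * p') _ _ (hf _)
    exact Γ.mul_mem (hf p) (hf p'))
  have hfb : Function.Bijective f' := by
    constructor
    · rw [injective_iff_map_eq_one]
      intro p hp
      have h1 := hf p
      have h2 : f p = 1 := hp
      rw [h2] at h1
      exact hΓ1 p h1
    · intro t
      obtain ⟨p₀, hp₀⟩ := has (b t)
      obtain ⟨z, hz, hzd⟩ := hcover (p₀, t) hp₀
      refine ⟨z * p₀, ?_⟩
      have e : (z, (1 : T)) * (p₀, t) = (z * p₀, t) := by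
        apply Prod.ext
        · rfl
        · show 1 * t = t
          group
      rw [e] at hzd
      exact huniq _ _ _ (hf _) hzd
  exact ⟨MulEquiv.ofBijective f' hfb⟩

end Ext

end Cfsg.Agent.Lib.Fusion.Hig
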