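import Cfsg.Agent.Lib.Fusion.Hig12

/-!
# Higman's theorem: the structure of `suzukiTypeA`.
-/

namespace Cfsg.Agent.Lib.Fusion.Hig

open Subgroup Matrix

universe u v

section TypeA

variable {F : Type*} [Field F] (φ : F →+* F)

/-- the matrix with coordinates `x, y` -/
def matT (x y : F) : Matrix (Fin 3) (Fin 3) F := !![1, 0, 0; x, 1, 0; y, φ x, 1]

lemma matT_mul (x y x' y' : F) :
    matT φ x y * matT φ x' y' = matT φ (x + x') (y + y' + φ x * x') := by
  ext i j
  fin_cases i <;> fin_cases j <;>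
    simp [matT, Matrix.mul_apply, Fin.sum_univ_three, map_add] <;> ring

lemma matT_zero : matT φ 0 0 = 1 := by
  ext i j
  fin_cases i <;> fin_cases j <;> simp [matT]

/-- the element of `GL₃` with coordinates `x, y` -/
def glT (x y : F) : GL (Fin 3) F where
  val := matT φ x y
  inv := matT φ (-x) (-y + φ x * x)
  val_inv := by
    rw [matT_mul, ← matT_zero φ]
    congr 1
    · ring
    · ring
  inv_val := by
    rw [matT_mul, ← matT_zero φ]
    congr 1
    · ring
    · rw [map_neg]; ring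

lemma mem_T {g : GL (Fin 3) F} (hg : g ∈ Cfsg.suzukiTypeA F φ) : ∃ x y, g = glT φ x y := by
  unfold Cfsg.suzukiTypeA at hg
  induction hg using Subgroup.closure_induction with
  | mem g hg =>
    obtain ⟨x, y, h⟩ := hg
    exact ⟨x, y, Units.ext h⟩
  | one =>
    refine ⟨0, 0, Units.ext ?_⟩
    exact (matT_zero φ).symm
  | mul a b _ _ ha hb =>
    obtain ⟨x, y, rfl⟩ := ha
    obtain ⟨x', y', rfl⟩ := hb
    refine ⟨x + x', y + y' + φ x * x', Units.ext ?_⟩
    exact matT_mul φ x y x' y'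
  | inv a _ ha =>
    obtain ⟨x, y, rfl⟩ := ha
    exact ⟨-x, -y + φ x * x, Units.ext rfl⟩

/-- the element of `suzukiTypeA` with coordinates `x, y` -/
def mkT (x y : F) : Cfsg.suzukiTypeA F φ :=
  ⟨glT φ x y, Subgroup.subset_closure ⟨x, y, rfl⟩⟩

/-- the coordinate `x` -/
def piT (t : Cfsg.suzukiTypeA F φ) : F := ((t : GL (Fin 3) F) : Matrix (Fin 3) (Fin 3) F) 1 0

/-- the coordinate `y` -/
def yT (t : Cfsg.suzukiTypeA F φ) : F := ((t : GL (Fin 3) F) : Matrix (Fin 3) (Fin 3) F) 2 0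

@[simp] lemma piT_mk (x y : F) : piT φ (mkT φ x y) = x := rfl
@[simp] lemma yT_mk (x y : F) : yT φ (mkT φ x y) = y := rfl

lemma mk_coord (t : Cfsg.suzukiTypeA F φ) : t = mkT φ (piT φ t) (yT φ t) := by
  obtain ⟨x, y, h⟩ := mem_T φ t.2
  apply Subtype.ext
  show (t : GL (Fin 3) F) = glT φ (piT φ t) (yT φ t)
  have h1 : piT φ t = x := by
    unfold piT
    rw [h]
    rfl
  have h2 : yT φ t = y := by
    unfold yT
    rw [h]
    rfl
  rw [h1, h2, h]

lemma mk_mul (x y x' y' : F) : mkT φ x y * mkT φ x' y' = mkT φ (x + x') (y + y' + φ x * x') := by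
  apply Subtype.ext
  apply Units.ext
  exact matT_mul φ x y x' y'

lemma T_ext {t t' : Cfsg.suzukiTypeA F φ} (h1 : piT φ t = piT φ t') (h2 : yT φ t = yT φ t') : t = t' := by
  rw [mk_coord φ t, mk_coord φ t', h1, h2]

lemma piT_mul (t t' : Cfsg.suzukiTypeA F φ) : piT φ (t * t') = piT φ t + piT φ t' := by
  conv_lhs => rw [mk_coord φ t, mk_coord φ t', mk_mul, piT_mk]

lemma yT_mul (t t' : Cfsg.suzukiTypeA F φ) :
    yT φ (t * t') = yT φ t + yT φ t' + φ (piT φ t) * piT φ t' := by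
  conv_lhs => rw [mk_coord φ t, mk_coord φ t', mk_mul, yT_mk]

lemma mk_zero : mkT φ (0 : F) 0 = 1 := by
  apply Subtype.ext
  apply Units.ext
  exact matT_zero φ

lemma yT_one : yT φ (1 : Cfsg.suzukiTypeA F φ) = 0 := by
  rw [← mk_zero, yT_mk]

/-- Isomorphism with `suzukiTypeA` from coordinates. -/
theorem iso_of_data [Finite F] (h2 : ∀ x : F, x + x = 0) {P : Type*} [Group P] [Finite P] (a c : P → F)
    (ha : ∀ p p', a (p * p') = a p + a p') (has : Function.Surjective a)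
    (hcen : ∀ z, a z = 0 → ∀ p, z * p = p * z)
    (hcm : ∀ z z', a z = 0 → a z' = 0 → c (z * z') = c z + c z')
    (hci : ∀ z, a z = 0 → c z = 0 → z = 1)
    (hcs : ∀ y, ∃ z, a z = 0 ∧ c z = y)
    (hsq : ∀ p, a (p * p) = 0 ∧ c (p * p) = φ (a p) * a p) : Nonempty (P ≃* Cfsg.suzukiTypeA F φ) := by
  refine iso_of_central_ext (T := Cfsg.suzukiTypeA F φ) a (piT φ) ha (piT_mul φ) has ?_
    (fun z => mkT φ 0 (c z)) ?_ ?_ ?_ ?_ hcen ?_ ?_
  · intro x
    exact ⟨mkT φ x 0, rfl⟩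
  · intro z z' hz hz'
    rw [mk_mul, hcm z z' hz hz', map_zero, zero_mul, add_zero, add_zero]
  · intro z _
    rfl
  · intro z hz h1
    apply hci z hz
    have := congrArg (yT φ) h1
    rwa [yT_mk, yT_one] at this
  · intro t ht
    obtain ⟨z, hz, hz2⟩ := hcs (yT φ t)
    refine ⟨z, hz, ?_⟩
    show mkT φ 0 (c z) = t
    rw [hz2]
    conv_rhs => rw [mk_coord φ t, ht]
  · intro t ht t'
    apply T_ext
    · rw [piT_mul, piT_mul, ht, zero_add, add_zero]
    · rw [yT_mul, yT_mul, ht, map_zero, zero_mul, mul_zero, add_zero, add_zero, add_comm]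
  · intro p t hpt
    obtain ⟨h3, h4⟩ := hsq p
    refine ⟨h3, ?_⟩
    apply T_ext
    · rw [piT_mul, h2]
      rfl
    · show yT φ (t * t) = c (p * p)
      rw [yT_mul, h2, zero_add, h4, hpt]

end TypeA

end Cfsg.Agent.Lib.Fusion.Hig
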