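import Cfsg.Agent.Lib.Fusion.Hig13
import Cfsg.Agent.Lib.RankOne.FieldAut

/-!
# Higman's theorem: field lemmas for type A.
-/

namespace Cfsg.Agent.Lib.Fusion.Hig

open Subgroup

universe u v

section Field

variable {F : Type*} [Field F] [Fintype F] [CharP F 2]

open Cfsg.Agent.Lib.RankOne

attribute [local instance] Cfsg.Agent.Lib.RankOne.fintypeAut

/-- A biadditive map `B` with `B(lx, ly) = M(l) B(x,y)`, not zero: `M` is a product of two
automorphisms. -/
theorem exists_sigma_tau (B : F → F → F) (hBl : ∀ x x' y, B (x + x') y = B x y + B x' y)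
    (hBr : ∀ x y y', B x (y + y') = B x y + B x y') (M : F → F)
    (hscale : ∀ l x y, l ≠ 0 → B (l * x) (l * y) = M l * B x y) (hne : ∃ x y, B x y ≠ 0) :
    ∃ σ τ : F ≃+* F, ∀ l, l ≠ 0 → M l = σ l * τ l := by
  classical
  let B' : F →+ F →+ F := AddMonoidHom.mk' (fun x => AddMonoidHom.mk' (B x) (hBr x))
    (fun x x' => by
      ext y
      exact hBl x x' y)
  obtain ⟨c, hc⟩ := exists_biadd_coord B'
  have hc' : ∀ x y, B x y = ∑ p : (F ≃+* F) × (F ≃+* F), c p * (p.1 x * p.2 y) := hc
  obtain ⟨x₀, y₀, hxy⟩ := hne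
  obtain ⟨p, hp⟩ : ∃ p, c p ≠ 0 := by
    by_contra hh
    push Not at hh
    apply hxy
    rw [hc']
    simp [hh]
  -- independence of the products
  have hind : ∀ d : (F ≃+* F) × (F ≃+* F) → F,
      (∀ x y, ∑ p : (F ≃+* F) × (F ≃+* F), d p * (p.1 x * p.2 y) = 0) → ∀ p, d p = 0 := by
    intro d hd p
    have h1 : ∀ y (σ : F ≃+* F), ∑ τ : F ≃+* F, d (σ, τ) * τ y = 0 := by
      intro y
      have h2 := Fintype.linearIndependent_iff.mp (aut_linearIndependent (F := F))
        (fun σ => ∑ τ : F ≃+* F, d (σ, τ) * τ y) (by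
          funext x
          have h3 := hd x y
          rw [Fintype.sum_prod_type] at h3
          simp only [Finset.sum_apply, Pi.smul_apply, smul_eq_mul, Pi.zero_apply]
          rw [← h3]
          refine Finset.sum_congr rfl fun σ _ => ?_
          rw [Finset.sum_mul]
          refine Finset.sum_congr rfl fun τ _ => ?_
          change d (σ, τ) * τ y * σ x = d (σ, τ) * (σ x * τ y)
          ring)
      exact h2
    have h4 := Fintype.linearIndependent_iff.mp (aut_linearIndependent (F := F))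
      (fun τ => d (p.1, τ)) (by
        funext y
        have h5 := h1 y p.1
        simp only [Finset.sum_apply, Pi.smul_apply, smul_eq_mul, Pi.zero_apply]
        exact h5) p.2
    exact h4
  refine ⟨p.1, p.2, fun l hl => ?_⟩
  have h1 := hind (fun q => c q * (q.1 l * q.2 l - M l)) (by
    intro x y
    have h2 := hscale l x y hl
    rw [hc', hc', Finset.mul_sum] at h2
    have h3 : ∑ q : (F ≃+* F) × (F ≃+* F), c q * (q.1 l * q.2 l - M l) * (q.1 x * q.2 y)
        = ∑ q : (F ≃+* F) × (F ≃+* F), c q * (q.1 (l * x) * q.2 (l * y))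
          - ∑ q : (F ≃+* F) × (F ≃+* F), M l * (c q * (q.1 x * q.2 y)) := by
      rw [← Finset.sum_sub_distrib]
      refine Finset.sum_congr rfl fun q _ => ?_
      rw [map_mul, map_mul]
      ring
    rw [h3, h2, sub_self]) p
  have h2 := (mul_eq_zero.mp h1).resolve_left hp
  exact (sub_eq_zero.mp h2).symm

/-- The order of an automorphism `φ` with `x ↦ x φ(x)` injective is odd. -/
theorem odd_orderOf_of_inj (φ : F ≃+* F) (hinj : ∀ x y : F, x ≠ 0 → y ≠ 0 → x * φ x = y * φ y → x = y) :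
    Odd (orderOf φ) := by
  classical
  haveI : Fact (Nat.Prime 2) := ⟨Nat.prime_two⟩
  letI : Algebra (ZMod 2) F := ZMod.algebra F 2
  set n := Module.finrank (ZMod 2) F with hn
  have hcard : Fintype.card F = 2 ^ n := by
    have h1 := Module.card_eq_pow_finrank (K := ZMod 2) (V := F)
    rwa [ZMod.card] at h1
  have hn0 : 0 < n := Module.finrank_pos
  let φ' : F ≃ₐ[ZMod 2] F := AlgEquiv.ofRingEquiv (f := φ) (fun r => by
    rcases zmod2_cases r with rfl | rfl <;> simp)
  obtain ⟨i, hi⟩ := (FiniteField.bijective_frobeniusAlgEquivOfAlgebraic_pow (ZMod 2) F).2 φ'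
  set r := (i : ℕ) with hr
  have hφ : ∀ x : F, φ x = x ^ (2 ^ r) := by
    intro x
    have h1 : φ x = φ' x := rfl
    have h2 := congrArg (fun f : F ≃ₐ[ZMod 2] F => f x) hi
    simp only at h2
    rw [h1, ← h2, AlgEquiv.coe_pow, FiniteField.coe_frobeniusAlgEquivOfAlgebraic_iterate, ZMod.card]
  set d := Nat.gcd n r with hd
  have hd0 : 0 < d := Nat.gcd_pos_of_pos_left _ hn0
  obtain ⟨n', hn'⟩ : d ∣ n := Nat.gcd_dvd_left _ _
  obtain ⟨r', hr'⟩ : d ∣ r := Nat.gcd_dvd_right _ _
  have hcop : Nat.Coprime n' r' := by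
    have := Nat.coprime_div_gcd_div_gcd (m := n) (n := r) hd0
    rw [← hd] at this
    have h1 : n / d = n' := by rw [hn']; exact Nat.mul_div_cancel_left _ hd0
    have h2 : r / d = r' := by rw [hr']; exact Nat.mul_div_cancel_left _ hd0
    rwa [h1, h2] at this
  by_cases hodd : Odd n'
  · -- `φ ^ n' = 1`
    have hpow : ∀ m : ℕ, ∀ x : F, (φ ^ m) x = x ^ ((2 ^ r) ^ m) := by
      intro m
      induction m with
      | zero => intro x; simp
      | succ m ih =>
        intro x
        rw [pow_succ', RingAut.mul_apply, ih, hφ, ← pow_mul, pow_succ', mul_comm]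
    have h1 : φ ^ n' = 1 := by
      ext x
      rw [hpow]
      have h2 : (2 ^ r) ^ n' = (2 ^ n) ^ r' := by
        rw [← pow_mul, ← pow_mul]
        congr 1
        rw [hr', hn']
        ring
      rw [h2, ← hcard, FiniteField.pow_card_pow]
      rfl
    exact Odd.of_dvd_nat hodd (orderOf_dvd_of_pow_eq_one h1)
  · exfalso
    have heven : Even n' := Nat.not_odd_iff_even.mp hodd
    have hr'odd : Odd r' := by
      by_contra hh
      have h2 : Even r' := Nat.not_odd_iff_even.mp hh
      have h4 : 2 ∣ Nat.gcd n' r' := Nat.dvd_gcd heven.two_dvd h2.two_dvd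
      rw [hcop] at h4
      omega
    obtain ⟨l, hl⟩ := heven
    -- the divisor `m = 2^d + 1`
    set m := 2 ^ d + 1 with hm
    have hm2 : 2 ≤ m := by
      have := Nat.one_le_two_pow (n := d)
      omega
    have hmr : m ∣ 2 ^ r + 1 := by
      have h1 := Odd.nat_add_dvd_pow_add_pow (2 ^ d) 1 hr'odd
      rw [one_pow, ← pow_mul, ← hr'] at h1
      exact h1
    have hmn : m ∣ 2 ^ n - 1 := by
      have h1 : ((m : ℕ) : ℤ) ∣ ((2 ^ n - 1 : ℕ) : ℤ) := by
        rw [Nat.cast_sub Nat.one_le_two_pow, hm]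
        push_cast
        have h2 : ((2 : ℤ) ^ d + 1) ∣ ((2 : ℤ) ^ d) ^ 2 - 1 := ⟨2 ^ d - 1, by ring⟩
        have h3 : ((((2 : ℤ) ^ d) ^ 2) - 1) ∣ ((((2 : ℤ) ^ d) ^ 2) ^ l - 1) := sub_one_dvd_pow_sub_one _ _
        have h4 : ((((2 : ℤ) ^ d) ^ 2) ^ l - 1) = 2 ^ n - 1 := by
          congr 1
          rw [← pow_mul, ← pow_mul, hn', hl]
          congr 1
          ring
        rw [← h4]
        exact h2.trans h3
      exact Int.natCast_dvd_natCast.mp h1
    obtain ⟨g, hg⟩ := IsCyclic.exists_generator (α := Fˣ)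
    have hord : orderOf g = 2 ^ n - 1 := by
      rw [orderOf_eq_card_of_forall_mem_zpowers hg, Nat.card_eq_fintype_card, Fintype.card_units, hcard]
    obtain ⟨e, he⟩ := hmn
    have hN : 0 < 2 ^ n - 1 := by
      have : 2 ≤ 2 ^ n := by
        calc 2 = 2 ^ 1 := by norm_num
          _ ≤ 2 ^ n := Nat.pow_le_pow_right (by norm_num) hn0
      omega
    have he0 : 0 < e := by
      rcases Nat.eq_zero_or_pos e with h0 | h0
      · rw [h0, mul_zero] at he; omega
      · exact h0
    have helt : e < 2 ^ n - 1 := by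
      rw [he]
      nlinarith
    set x₀ := g ^ e with hx₀
    have hx₀1 : x₀ ≠ 1 := by
      intro hh
      have := orderOf_le_of_pow_eq_one he0 hh
      omega
    have hx₀m : x₀ ^ m = 1 := by
      rw [hx₀, ← pow_mul, mul_comm, ← he, ← hord, pow_orderOf_eq_one]
    have hx₀r : x₀ ^ (2 ^ r + 1) = 1 := by
      obtain ⟨w, hw⟩ := hmr
      rw [hw, pow_mul, hx₀m, one_pow]
    have h5 : (x₀ : F) * φ x₀ = 1 := by
      rw [hφ, ← pow_succ']
      have := congrArg (Units.val) hx₀r
      simpa using this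
    have h6 := hinj (x₀ : F) 1 x₀.ne_zero one_ne_zero (by rw [h5, map_one, one_mul])
    exact hx₀1 (Units.ext h6)

end Field

end Cfsg.Agent.Lib.Fusion.Hig
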