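import Cfsg.Agent.Lib.Fusion.Hig14

/-!
# Higman's theorem: type A.
-/

namespace Cfsg.Agent.Lib.Fusion.Hig

open Subgroup

universe u v

section Abstract

variable {K : Type*} [CommGroup K] {G : Type*} [Group G] [Finite G] {F : Type*} [Field F] [Fintype F]
  [CharP F 2]

/-- From coordinates to type A. -/
theorem typeA_abstract (κ₁ κ₂ : K ≃* Fˣ) (A C : G → F)
    (hA : ∀ p p', A (p * p') = A p + A p') (hAs : Function.Surjective A)
    (hAz : ∀ z, A z = 0 ↔ z * z = 1)
    (hsq1 : ∀ p : G, (p * p) * (p * p) = 1)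
    (hcm1 : ∀ p p' : G, cm p p' * cm p p' = 1)
    (hcen : ∀ z : G, z * z = 1 → z ∈ center G)
    (hCm : ∀ z z' : G, z * z = 1 → z' * z' = 1 → C (z * z') = C z + C z')
    (hC0 : ∀ z : G, z * z = 1 → C z = 0 → z = 1)
    (hCs : ∀ y, ∃ z : G, z * z = 1 ∧ C z = y)
    (act : K → G → G) (hAa : ∀ k p, A (act k p) = κ₁ k * A p)
    (hCa : ∀ k z, z * z = 1 → C (act k z) = κ₂ k * C z)
    (hasq : ∀ k p, act k (p * p) = act k p * act k p)
    (hacm : ∀ k p p', act k (cm p p') = cm (act k p) (act k p'))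
    (hnc : ∃ x y : G, x * y ≠ y * x) :
    ∃ φ : F ≃+* F, φ ≠ RingEquiv.refl F ∧ Odd (orderOf φ) ∧ Nonempty (G ≃* Cfsg.suzukiTypeA F (φ : F →+* F)) := by
  classical
  have h2 : ∀ x : F, x + x = 0 := CharTwo.add_self_eq_zero
  have hc : ∀ a b : G, cm a b ∈ center G := fun a b => hcen _ (hcm1 a b)
  have hA1 : A 1 = 0 := (hAz 1).mpr (by simp)
  have hAinv : ∀ p, A p⁻¹ = A p := by
    intro p
    have := hA p⁻¹ p
    rw [inv_mul_cancel, hA1] at this
    exact CharTwo.add_eq_zero.mp this.symm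
  choose s hs using hAs
  have hker : ∀ p q, A p = A q → (p⁻¹ * q) * (p⁻¹ * q) = 1 := by
    intro p q hpq
    rw [← hAz, hA, hAinv, hpq, h2]
  have hsqz : ∀ x z : G, z * z = 1 → (x * z) * (x * z) = x * x := by
    intro x z hz
    have hz' := hcen z hz
    rw [mul_sq_of_central (by rw [cm_of_center hz']; exact one_mem _), hz, mul_one,
      cm_of_center hz', mul_one]
  have hcmz : ∀ x y z z' : G, z * z = 1 → z' * z' = 1 → cm (y * z') (x * z) = cm y x := by
    intro x y z z' hz hz'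
    rw [cm_mul_left_of_central (hc _ _), cm_of_center (hcen _ hz'), mul_one,
      cm_mul_right_of_central (hc _ _), cm_of_center' (hcen _ hz), mul_one]
  have hΩmul : ∀ x y : G, x * x = 1 → y * y = 1 → (x * y) * (x * y) = 1 := by
    intro x y hx hy
    rw [hsqz x y hy, hx]
  let Q : F → F := fun x => C (s x * s x)
  let B : F → F → F := fun x y => C (cm (s y) (s x))
  have hQA : ∀ p, Q (A p) = C (p * p) := by
    intro p
    show C (s (A p) * s (A p)) = _
    have h1 := hker p (s (A p)) (hs _).symm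
    have e : s (A p) = p * (p⁻¹ * s (A p)) := by group
    rw [e, hsqz _ _ h1]
  have hBA : ∀ p p', B (A p) (A p') = C (cm p' p) := by
    intro p p'
    show C (cm (s (A p')) (s (A p))) = _
    have h1 := hker p (s (A p)) (hs _).symm
    have h3 := hker p' (s (A p')) (hs _).symm
    have e : s (A p) = p * (p⁻¹ * s (A p)) := by group
    have e' : s (A p') = p' * (p'⁻¹ * s (A p')) := by group
    rw [e, e', hcmz _ _ _ _ h1 h3]
  have hQadd : ∀ x y, Q (x + y) = Q x + Q y + B x y := by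
    intro x y
    have e : x + y = A (s x * s y) := by rw [hA, hs, hs]
    rw [e, hQA, mul_sq_of_central (hc _ _)]
    have h1 := hsq1 (s x)
    have h3 := hsq1 (s y)
    rw [hCm _ _ (hΩmul _ _ h1 h3) (hcm1 _ _), hCm _ _ h1 h3]
  have hBl : ∀ x x' y, B (x + x') y = B x y + B x' y := by
    intro x x' y
    have e : x + x' = A (s x * s x') := by rw [hA, hs, hs]
    have e2 : y = A (s y) := (hs y).symm
    conv_lhs => rw [e, e2]
    rw [hBA, cm_mul_right_of_central (hc _ _), hCm _ _ (hcm1 _ _) (hcm1 _ _)]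
  have hBr : ∀ x y y', B x (y + y') = B x y + B x y' := by
    intro x y y'
    have e : y + y' = A (s y * s y') := by rw [hA, hs, hs]
    have e2 : x = A (s x) := (hs x).symm
    conv_lhs => rw [e, e2]
    rw [hBA, cm_mul_left_of_central (hc _ _), hCm _ _ (hcm1 _ _) (hcm1 _ _)]
  have hBs : ∀ k x y, B (κ₁ k * x) (κ₁ k * y) = κ₂ k * B x y := by
    intro k x y
    have e1 : (κ₁ k : F) * x = A (act k (s x)) := by rw [hAa, hs]
    have e2 : (κ₁ k : F) * y = A (act k (s y)) := by rw [hAa, hs]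
    rw [e1, e2, hBA, ← hacm, hCa _ _ (hcm1 _ _)]
  have hQs : ∀ k x, Q (κ₁ k * x) = κ₂ k * Q x := by
    intro k x
    have e1 : (κ₁ k : F) * x = A (act k (s x)) := by rw [hAa, hs]
    rw [e1, hQA, ← hasq, hCa _ _ (hsq1 _)]
  have hQ0 : ∀ x, Q x = 0 → x = 0 := by
    intro x hx
    have h1 : s x * s x = 1 := hC0 _ (hsq1 _) hx
    rw [← hs x]
    exact (hAz _).mpr h1
  have hC1 : C 1 = 0 := by
    have := hCm 1 1 (by simp) (by simp)
    rw [mul_one] at this
    exact (add_eq_left.mp this.symm)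
  have hQ00 : Q 0 = 0 := by
    have := hQA 1
    rwa [hA1, mul_one, hC1] at this
  have hBne : ∃ x y, B x y ≠ 0 := by
    obtain ⟨a, b, hab⟩ := hnc
    refine ⟨A a, A b, ?_⟩
    rw [hBA]
    intro h3
    have h4 := hC0 _ (hcm1 _ _) h3
    exact hab (cm_eq_one_iff.mp h4).symm
  let M : F → F := fun l => if h : l = 0 then 0 else ((κ₂ (κ₁.symm (Units.mk0 l h)) : Fˣ) : F)
  have hMk : ∀ k : K, M (κ₁ k) = κ₂ k := by
    intro k
    have hne : ((κ₁ k : Fˣ) : F) ≠ 0 := Units.ne_zero _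
    show (if h : ((κ₁ k : Fˣ) : F) = 0 then 0 else ((κ₂ (κ₁.symm (Units.mk0 _ h)) : Fˣ) : F)) = _
    rw [dif_neg hne]
    have : Units.mk0 ((κ₁ k : Fˣ) : F) hne = κ₁ k := Units.ext rfl
    rw [this, MulEquiv.symm_apply_apply]
  have hsurjκ : ∀ l : F, l ≠ 0 → ∃ k : K, ((κ₁ k : Fˣ) : F) = l := by
    intro l hl
    obtain ⟨k, hk⟩ := κ₁.surjective (Units.mk0 l hl)
    exact ⟨k, by rw [hk]; rfl⟩
  obtain ⟨σ, τ, hM⟩ := exists_sigma_tau B hBl hBr M (by
    intro l x y hl
    obtain ⟨k, rfl⟩ := hsurjκ l hl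
    rw [hBs, hMk]) hBne
  set c₀ := Q 1 with hc₀
  have hc₀0 : c₀ ≠ 0 := fun hh => one_ne_zero (hQ0 1 hh)
  have hQform : ∀ l, Q l = c₀ * (σ l * τ l) := by
    intro l
    by_cases hl : l = 0
    · rw [hl, hQ00, map_zero, zero_mul, mul_zero]
    obtain ⟨k, rfl⟩ := hsurjκ l hl
    have h1 := hQs k 1
    rw [mul_one] at h1
    rw [h1, ← hM _ hl, hMk, mul_comm]
  let φ : F ≃+* F := σ.symm.trans τ
  have hφ : ∀ y, φ (σ y) = τ y := by
    intro y
    show τ (σ.symm (σ y)) = τ y
    rw [RingEquiv.symm_apply_apply]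
  refine ⟨φ, ?_, ?_, ?_⟩
  · intro hh
    have hτ : ∀ y, τ y = σ y := by
      intro y
      rw [← hφ, hh]
      rfl
    obtain ⟨x, y, hxy⟩ := hBne
    apply hxy
    have h1 := hQadd x y
    rw [hQform, hQform, hQform, hτ, hτ, hτ, map_add] at h1
    have h3 : c₀ * ((σ x + σ y) * (σ x + σ y)) = c₀ * (σ x * σ x) + c₀ * (σ y * σ y) + c₀ * ((σ x * σ y) + (σ x * σ y)) := by
      ring
    rw [h3, h2, mul_zero, add_zero] at h1
    exact (add_eq_left.mp h1.symm)
  · apply odd_orderOf_of_inj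
    intro x y hx hy hxy
    obtain ⟨x', rfl⟩ := σ.surjective x
    obtain ⟨y', rfl⟩ := σ.surjective y
    rw [hφ, hφ] at hxy
    have hx' : x' ≠ 0 := fun h => hx (by rw [h, map_zero])
    have hy' : y' ≠ 0 := fun h => hy (by rw [h, map_zero])
    rw [← hM _ hx', ← hM _ hy'] at hxy
    obtain ⟨k, rfl⟩ := hsurjκ x' hx'
    obtain ⟨l, rfl⟩ := hsurjκ y' hy'
    rw [hMk, hMk] at hxy
    have h1 : κ₂ k = κ₂ l := Units.ext hxy
    have h3 := κ₂.injective h1
    rw [h3]
  · refine iso_of_data (φ : F →+* F) h2 (fun p => σ (A p)) (fun p => c₀⁻¹ * C p) ?_ ?_ ?_ ?_ ?_ ?_ ?_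
    · intro p p'
      show σ (A (p * p')) = σ (A p) + σ (A p')
      rw [hA, map_add]
    · intro y
      obtain ⟨p, hp⟩ : ∃ p, A p = σ.symm y := ⟨_, hs _⟩
      exact ⟨p, by show σ (A p) = y; rw [hp, RingEquiv.apply_symm_apply]⟩
    · intro z hz p
      have h1 : A z = 0 := by
        have h3 : σ (A z) = 0 := hz
        exact (map_eq_zero_iff σ σ.injective).mp h3
      exact center_comm (hcen _ ((hAz z).mp h1)) p
    · intro z z' hz hz'
      have h1 : A z = 0 := (map_eq_zero_iff σ σ.injective).mp hz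
      have h3 : A z' = 0 := (map_eq_zero_iff σ σ.injective).mp hz'
      show c₀⁻¹ * C (z * z') = c₀⁻¹ * C z + c₀⁻¹ * C z'
      rw [hCm _ _ ((hAz z).mp h1) ((hAz z').mp h3), mul_add]
    · intro z hz hz2
      have h1 : A z = 0 := (map_eq_zero_iff σ σ.injective).mp hz
      have h3 : c₀⁻¹ * C z = 0 := hz2
      exact hC0 _ ((hAz z).mp h1) ((mul_eq_zero.mp h3).resolve_left (inv_ne_zero hc₀0))
    · intro y
      obtain ⟨z, hz, hz2⟩ := hCs (c₀ * y)
      refine ⟨z, ?_, ?_⟩
      · show σ (A z) = 0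
        rw [(hAz z).mpr hz, map_zero]
      · show c₀⁻¹ * C z = y
        rw [hz2, ← mul_assoc, inv_mul_cancel₀ hc₀0, one_mul]
    · intro p
      refine ⟨?_, ?_⟩
      · show σ (A (p * p)) = 0
        rw [(hAz _).mpr (hsq1 p), map_zero]
      · show c₀⁻¹ * C (p * p) = φ (σ (A p)) * σ (A p)
        rw [← hQA, hQform, hφ, ← mul_assoc, inv_mul_cancel₀ hc₀0, one_mul, mul_comm]

end Abstract

section Main

variable {K : Type v} [CommGroup K] {G : Type u} [Group G] {ρ : K →* MulAut G}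

/-- **Higman's theorem, type A**. -/
theorem KG.typeA (h : KG ρ) (hnc : ∃ x y : G, x * y ≠ y * x)
    (hcard : Nat.card G = Nat.card (center G) ^ 2) :
    ∃ (F : Type) (_ : Field F) (_ : Fintype F) (φ : F ≃+* F), Fintype.card F = Nat.card (center G) ∧
      φ ≠ RingEquiv.refl F ∧ Odd (orderOf φ) ∧ Nonempty (G ≃* Cfsg.suzukiTypeA F (φ : F →+* F)) := by
  classical
  haveI := h.fin
  haveI : Fact (Nat.Prime 2) := ⟨Nat.prime_two⟩
  obtain ⟨h4, hcm⟩ := higman_main _ G ρ h rfl hnc
  have hcen : ∀ z ∈ center G, z * z = 1 := fun z hz => h.center_sq hnc hz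
  obtain ⟨F₂, fld₂, ⟨D⟩⟩ := h.exists_FD
  haveI : Finite F₂ := D.finite
  haveI : Fintype F₂ := Fintype.ofFinite F₂
  let U := G ⧸ center G
  let ρ' := quotAct ρ (center G) (center_kinv ρ)
  have hU2 : ∀ a : U, a * a = 1 := by
    intro a
    induction a using QuotientGroup.induction_on with
    | H x => exact mk_sq_iff.mpr (h.central (h4 x))
  have hZpos : 0 < Nat.card (center G) := Nat.card_pos
  have hGU : Nat.card G = Nat.card U * Nat.card (center G) :=
    Subgroup.card_eq_card_quotient_mul_card_subgroup _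
  have hUZ : Nat.card U = Nat.card (center G) := by
    rw [hcard, pow_two] at hGU
    exact (Nat.eq_of_mul_eq_mul_right hZpos hGU).symm
  have hcardZ : Nat.card (center G) = Nat.card F₂ := by
    symm
    apply Nat.card_congr
    refine Equiv.ofBijective (fun a => (⟨D.ι a, h.central (D.ι_sq a)⟩ : center G)) ⟨?_, ?_⟩
    · intro a b hab
      exact D.ι_inj (congrArg Subtype.val hab)
    · rintro ⟨z, hz⟩
      obtain ⟨a, ha⟩ := D.ι_surj z (hcen z hz)
      exact ⟨a, Subtype.ext ha⟩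
  -- `K` is regular on `U ∖ 1`
  haveI : Finite K := Finite.of_injective _ D.κ.injective
  have hfree : ∀ (k : K) (u : U), u ≠ 1 → ρ' k u = u → k = 1 := by
    intro k u hu hk
    by_contra hk1
    obtain ⟨y, rfl⟩ := QuotientGroup.mk_surjective u
    apply hu
    rw [QuotientGroup.eq_one_iff]
    apply h.coset_fix hk1 (center_kinv ρ)
    rw [← QuotientGroup.eq]
    exact hk.symm
  have hne : ∀ (k : K) (u : U), u ≠ 1 → ρ' k u ≠ 1 := by
    intro k u hu hh
    apply hu
    have h1 := congrArg (ρ' k⁻¹) hh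
    rwa [rho_inv_apply', map_one] at h1
  have hcardK : Nat.card K + 1 = Nat.card F₂ := by
    rw [Nat.card_congr D.κ.toEquiv, Nat.card_eq_fintype_card, Fintype.card_units,
      ← Nat.card_eq_fintype_card]
    have : 1 < Nat.card F₂ := Finite.one_lt_card
    omega
  have hcardX : Nat.card {u : U // u ≠ 1} + 1 = Nat.card U := by
    haveI : Fintype U := Fintype.ofFinite U
    rw [Nat.card_eq_fintype_card, Nat.card_eq_fintype_card]
    have h1 : Fintype.card {u : U // u ≠ 1} = Fintype.card U - 1 := Set.card_ne_eq (1 : U)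
    have h2 : 0 < Fintype.card U := Fintype.card_pos
    omega
  have hreg : ∀ u v : U, u ≠ 1 → v ≠ 1 → ∃! k : K, ρ' k u = v := by
    intro u v hu hv
    let f : K → {u : U // u ≠ 1} := fun k => ⟨ρ' k u, hne k u hu⟩
    have hf : Function.Injective f := by
      intro k l hkl
      have h1 : ρ' k u = ρ' l u := congrArg Subtype.val hkl
      have h2 : ρ' (l⁻¹ * k) u = u := by
        rw [rho_mul_apply, h1, rho_inv_apply']
      have h3 := hfree _ u hu h2
      exact (inv_mul_eq_one.mp h3).symm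
    have hfb := hf.bijective_of_nat_card_le (by omega)
    obtain ⟨k, hk⟩ := hfb.2 ⟨v, hv⟩
    refine ⟨k, congrArg Subtype.val hk, fun l hl => ?_⟩
    apply hf
    apply Subtype.ext
    exact hl.trans (congrArg Subtype.val hk).symm
  have hU1 : ∃ e : U, e ≠ 1 := by
    obtain ⟨a, b, hab⟩ := hnc
    refine ⟨(a : U), ?_⟩
    intro hh
    rw [QuotientGroup.eq_one_iff] at hh
    exact hab (center_comm hh b)
  obtain ⟨e, he⟩ := hU1
  obtain ⟨F₁, fld₁, ι₁, κU, h1add, h1bij, h1smul⟩ := exists_field_of_regular ρ' hU2 he hreg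
  haveI : Finite F₁ := Finite.of_injective _ h1bij.1
  haveI : Fintype F₁ := Fintype.ofFinite F₁
  have hcard1 : Nat.card F₁ = Nat.card (center G) := by
    rw [← hUZ]
    exact Nat.card_congr (Equiv.ofBijective ι₁ h1bij)
  -- the target field
  obtain ⟨n, hn⟩ := IsPGroup.iff_card.mp (h.two.to_subgroup (center G))
  have hn0 : n ≠ 0 := by
    rintro rfl
    have : 1 < Nat.card F₂ := Finite.one_lt_card
    rw [← hcardZ, hn] at this
    simp at this
  let F := GaloisField 2 n
  haveI : Finite F := by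
    by_contra hinf
    rw [not_finite_iff_infinite] at hinf
    have := GaloisField.card 2 n hn0
    rw [Nat.card_eq_zero_of_infinite] at this
    have h5 : 0 < 2 ^ n := by positivity
    omega
  letI : Fintype F := Fintype.ofFinite F
  have hcardF : Fintype.card F = Nat.card (center G) := by
    rw [← Nat.card_eq_fintype_card, hn]
    exact GaloisField.card 2 n hn0
  let π₁ : F₁ ≃+* F := FiniteField.ringEquivOfCardEq (by
    rw [hcardF, ← Nat.card_eq_fintype_card, hcard1])
  let π₂ : F₂ ≃+* F := FiniteField.ringEquivOfCardEq (by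
    rw [hcardF, ← Nat.card_eq_fintype_card, hcardZ])
  let e₁ : F₁ ≃ U := Equiv.ofBijective ι₁ h1bij
  have he₁ : ∀ u, ι₁ (e₁.symm u) = u := fun u => e₁.apply_symm_apply u
  have hι0 : ι₁ 0 = 1 := by
    have := h1add 0 0
    rw [add_zero] at this
    exact (mul_eq_left.mp this.symm)
  let κ₁ : K ≃* Fˣ := κU.trans (Units.mapEquiv π₁.toMulEquiv)
  let κ₂ : K ≃* Fˣ := D.κ.trans (Units.mapEquiv π₂.toMulEquiv)
  let A : G → F := fun p => π₁ (e₁.symm (p : U))
  let C : G → F := fun z => π₂ (D.ν z)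
  obtain ⟨φ, hφ1, hφ2, hφ3⟩ := typeA_abstract (F := F) κ₁ κ₂ A C
    (by
      intro p p'
      show π₁ (e₁.symm ((p * p' : G) : U)) = π₁ (e₁.symm (p : U)) + π₁ (e₁.symm (p' : U))
      rw [← map_add]
      congr 1
      apply h1bij.1
      rw [h1add, he₁, he₁, he₁]
      rfl)
    (by
      intro y
      obtain ⟨p, hp⟩ := QuotientGroup.mk_surjective (e₁ (π₁.symm y))
      refine ⟨p, ?_⟩
      show π₁ (e₁.symm (p : U)) = y
      rw [hp, Equiv.symm_apply_apply, RingEquiv.apply_symm_apply])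
    (by
      intro z
      constructor
      · intro hz
        have h1 : e₁.symm (z : U) = 0 := (map_eq_zero_iff π₁ π₁.injective).mp hz
        have h3 : (z : U) = 1 := by
          rw [← he₁ (z : U), h1, hι0]
        rw [QuotientGroup.eq_one_iff] at h3
        exact hcen z h3
      · intro hz
        have h1 : (z : U) = 1 := by
          rw [QuotientGroup.eq_one_iff]
          exact h.central hz
        show π₁ (e₁.symm (z : U)) = 0
        rw [h1]
        have h3 : e₁.symm (1 : U) = 0 := by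
          apply h1bij.1
          rw [he₁, hι0]
        rw [h3, map_zero])
    h4 hcm (fun z hz => h.central hz)
    (by
      intro z z' hz hz'
      show π₂ (D.ν (z * z')) = π₂ (D.ν z) + π₂ (D.ν z')
      rw [D.ν_mul hz hz', map_add])
    (by
      intro z hz hz0
      have h1 : D.ν z = 0 := (map_eq_zero_iff π₂ π₂.injective).mp hz0
      exact D.ν_eq_zero hz h1)
    (by
      intro y
      refine ⟨D.ι (π₂.symm y), D.ι_sq _, ?_⟩
      show π₂ (D.ν (D.ι (π₂.symm y))) = y
      rw [D.ν_ι, RingEquiv.apply_symm_apply])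
    (fun k p => ρ k p)
    (by
      intro k p
      show π₁ (e₁.symm ((ρ k p : G) : U)) = π₁ (κU k) * π₁ (e₁.symm (p : U))
      rw [← map_mul]
      congr 1
      apply h1bij.1
      rw [← h1smul, he₁, he₁]
      rfl)
    (by
      intro k z hz
      show π₂ (D.ν (ρ k z)) = π₂ (D.κ k) * π₂ (D.ν z)
      rw [D.ν_smul hz, map_mul])
    (fun k p => map_mul (ρ k) p p)
    (fun k p p' => rho_cm ρ k p p')
    hnc
  exact ⟨F, inferInstance, inferInstance, φ, hcardF, hφ1, hφ2, hφ3⟩

end Main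

end Cfsg.Agent.Lib.Fusion.Hig
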