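/-
Subsystems of index `p` through a characteristic biset: the fusion system of the kernel of a homomorphism
of the group of permutations commuting with the right action.
-/
import Cfsg.Agent.Lib.Fusion.ParkAb
import Cfsg.Agent.Lib.Fusion2.CharBiset
import Cfsg.Agent.Lib.Fusion.Generation
import Cfsg.Agent.Lib.Fusion.GroupFusion

set_option autoImplicit false

namespace Cfsg.Agent.Lib.Fusion

open Cfsg Cfsg.FusionSystem Cfsg.Agent.Lib.Fusion2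

variable {Ω : Type*} [Group Ω] {S T : Subgroup Ω} {F : FusionSystem S}
variable {X : Type*} [MulAction (↥S × ↥S) X]

/-- `g` intertwines the left action along `φ`. -/
def Intw {P : Subgroup Ω} (φ : P → Ω) (g : rG ↥S X) : Prop :=
  ∀ (v : P) (h₁ : (v : Ω) ∈ S) (h₂ : φ v ∈ S) (x : X),
    (g : Equiv.Perm X) (((⟨v, h₁⟩ : ↥S), (1 : ↥S)) • x) = ((⟨φ v, h₂⟩ : ↥S), (1 : ↥S)) • (g : Equiv.Perm X) x

theorem intw_comp {P Q : Subgroup Ω} {φ : P → Ω} {ψ : Q → Ω} {g g' : rG ↥S X} (hg : Intw φ g) (hg' : Intw ψ g')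
    (hφ : ∀ x : P, φ x ∈ Q) (hQ : Q ≤ S) (hPS : ∀ x : P, φ x ∈ S) :
    Intw (fun x : P => ψ ⟨φ x, hφ x⟩) (g' * g) := by
  intro v h₁ h₂ x
  show (g' : Equiv.Perm X) ((g : Equiv.Perm X) _) = _ • (g' : Equiv.Perm X) ((g : Equiv.Perm X) x)
  rw [hg v h₁ (hPS v) x]
  exact hg' ⟨φ v, hφ v⟩ (hQ (hφ v)) h₂ _

theorem intw_conj {P : Subgroup Ω} {s : Ω} (hs : s ∈ S) : Intw (X := X) (conjHom P s) (lH ⟨s, hs⟩) := by
  intro v h₁ h₂ x
  show ((⟨s, hs⟩ : ↥S), (1 : ↥S)) • ((⟨v, h₁⟩ : ↥S), (1 : ↥S)) • x = ((⟨conjHom P s v, h₂⟩ : ↥S), (1 : ↥S)) • ((⟨s, hs⟩ : ↥S), (1 : ↥S)) • x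
  simp only [pp, mul_one]
  congr 2
  apply Subtype.ext
  show s * (v : Ω) = s * v * s⁻¹ * s
  group

theorem intw_inv {P Q : Subgroup Ω} {φ : P → Ω} {ψ : Q → Ω} {g : rG ↥S X} (hg : Intw φ g)
    (hψ : ∀ y : Q, ∃ x : P, φ x = y ∧ ψ y = x) (hPS : P ≤ S) :
    Intw ψ g⁻¹ := by
  intro v h₁ h₂ x
  obtain ⟨w, hw1, hw2⟩ := hψ v
  have h3 := hg w (hPS w.2) (by rw [hw1]; exact h₁) ((g⁻¹ : rG ↥S X) • x)
  have e1 : (⟨φ w, by rw [hw1]; exact h₁⟩ : ↥S) = ⟨v, h₁⟩ := Subtype.ext hw1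
  have e2 : (⟨w, hPS w.2⟩ : ↥S) = ⟨ψ v, h₂⟩ := Subtype.ext hw2.symm
  rw [e1, e2] at h3
  have e3 : (g : Equiv.Perm X) ((g⁻¹ : rG ↥S X) • x) = x := by
    show (g : Equiv.Perm X) (((g : Equiv.Perm X))⁻¹ x) = x
    simp
  rw [e3] at h3
  rw [← h3]
  show ((g : Equiv.Perm X))⁻¹ ((g : Equiv.Perm X) _) = _
  simp
  rfl

theorem intw_restrict {P R : Subgroup Ω} {φ : P → Ω} {g : rG ↥S X} (hg : Intw φ g) (hR : R ≤ P) :
    Intw (fun x : R => φ (Subgroup.inclusion hR x)) g := fun v h₁ h₂ x => hg (Subgroup.inclusion hR v) h₁ h₂ x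

theorem sylowIn_inf_of_normalIn {G : Type*} [Group G] {p : ℕ} [Fact p.Prime] {U A₀ A₁ : Subgroup G} [Finite A₁]
    (hU : SylowIn p U A₁) (hA : A₀ ≤ A₁) (hn : ∀ a ∈ A₁, ∀ x ∈ A₀, a * x * a⁻¹ ∈ A₀) (hUp : IsPGroup p U) :
    SylowIn p (U ⊓ A₀) A₀ := by
  haveI : Finite A₀ := Finite.of_injective (Subgroup.inclusion hA) (Subgroup.inclusion_injective hA)
  refine sylowIn_of_max inf_le_right (hUp.to_le inf_le_left) (fun V hV hVp => ?_)
  obtain ⟨c, hc, hcV⟩ := hU.exists_conj hVp (hV.trans hA)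
  rw [← card_cj c V]
  have hle : cj c V ≤ U ⊓ A₀ := le_inf hcV (cj_le_iff.2 (fun x hx => hn c hc x (hV hx)))
  haveI : Finite ↥(U ⊓ A₀) := Finite.of_injective (Subgroup.inclusion (inf_le_right : U ⊓ A₀ ≤ A₀)) (Subgroup.inclusion_injective _)
  exact Nat.card_le_card_of_injective (Subgroup.inclusion hle) (Subgroup.inclusion_injective hle)

section Twist

variable (hX : IsCharBiset F X)

include hX

theorem exists_intw [Finite X] [Finite S] {P : Subgroup Ω} {φ : P →* Ω} (hφ : φ ∈ F.Hom P) : ∃ g : rG ↥S X, Intw φ g := by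
  obtain ⟨g, h1, h2⟩ := hX.exists_twist_iso hφ
  exact ⟨⟨g, h1⟩, fun v h₁ h₂ x => h2 v x⟩

end Twist

section System

variable {A : Type*} [CommGroup A] (hX : IsCharBiset F X) {ξ : X → ↥S}
  (hξ : ∀ (x : X) (s : ↥S), ξ (((1 : ↥S), s) • x) = ξ x * s⁻¹) (χ : ↥S →* A)
  [Fintype {x : X // ξ x = 1}] [Finite X]

/-- The fusion system of the kernel. -/
noncomputable def parkSystem (hTS : T ≤ S) (hTχ' : ∀ t : ↥S, (t : Ω) ∈ T → χ t = 1)
    (ha : ∀ (u : ↥S) (b : X), ξ b = 1 → χ (hh ξ u b) = χ u) : FusionSystem T where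
  Hom P := {φ | φ ∈ F.Hom P ∧ P ≤ T ∧ (∀ x : P, φ x ∈ T) ∧ ∃ g : rG ↥S X, rho hξ χ g = 1 ∧ Intw φ g}
  le_of_mem h := ⟨h.2.1, h.2.2.1⟩
  injective_of_mem h := inj h.1
  conj_mem {P g} hP hg := by
    refine ⟨F.conj_mem (hP.trans hTS) (hTS hg), hP, fun x => T.mul_mem (T.mul_mem hg (hP x.2)) (T.inv_mem hg), lH ⟨g, hTS hg⟩, ?_, intw_conj (hTS hg)⟩
    rw [rho_lH hξ χ ha, hTχ' _ hg, one_pow]
  comp_mem {P Q φ ψ} hφ hψ h := by
    obtain ⟨hφ1, hφ2, hφ3, g, hg1, hg2⟩ := hφ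
    obtain ⟨hψ1, hψ2, hψ3, g', hg1', hg2'⟩ := hψ
    refine ⟨F.comp_mem hφ1 hψ1 h, hφ2, fun x => hψ3 _, g' * g, by rw [map_mul, hg1, hg1', one_mul], ?_⟩
    exact intw_comp hg2 hg2' h (le_of_hom hψ1) (val_mem hφ1)
  inv_mem {P φ} hφ := by
    obtain ⟨hφ1, hφ2, hφ3, g, hg1, hg2⟩ := hφ
    obtain ⟨ψ, hψ, hψe⟩ := F.inv_mem hφ1
    refine ⟨ψ, ⟨hψ, ?_, ?_, g⁻¹, by rw [map_inv, hg1, inv_one], ?_⟩, hψe⟩
    · rintro _ ⟨x, rfl⟩
      exact hφ3 x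
    · rintro ⟨_, x, rfl⟩
      have := hψe x
      show ψ ⟨φ x, _⟩ ∈ T
      rw [this]
      exact hφ2 x.2
    · refine intw_inv hg2 ?_ (le_of_hom hφ1)
      rintro ⟨_, x, rfl⟩
      exact ⟨x, rfl, hψe x⟩


variable {hξ χ}

theorem mem_parkSystem {hTS : T ≤ S} {hTχ' : ∀ t : ↥S, (t : Ω) ∈ T → χ t = 1}
    {ha : ∀ (u : ↥S) (b : X), ξ b = 1 → χ (hh ξ u b) = χ u} {P : Subgroup Ω} {φ : P →* Ω} :
    φ ∈ (parkSystem (F := F) hξ χ hTS hTχ' ha).Hom P ↔ φ ∈ F.Hom P ∧ P ≤ T ∧ (∀ x : P, φ x ∈ T) ∧ ∃ g : rG ↥S X, rho hξ χ g = 1 ∧ Intw φ g := Iff.rfl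

variable (hξ χ)

section Sat

variable {p : ℕ} [hp : Fact p.Prime] [Finite S] (hS : IsPGroup p S) (hF : F.IsSaturated p)
  (hTS : T ≤ S) (hTχ : ∀ t : ↥S, χ t = 1 → (t : Ω) ∈ T) (hTχ' : ∀ t : ↥S, (t : Ω) ∈ T → χ t = 1)
  (ha : ∀ (u : ↥S) (b : X), ξ b = 1 → χ (hh ξ u b) = χ u)
  (hinv : ∀ (P : Subgroup Ω) (φ : P →* Ω) (hφ : φ ∈ F.Hom P) (x : P), χ ⟨φ x, val_mem hφ x⟩ = χ ⟨x, le_of_hom hφ x.2⟩)
  (hAp : Nat.card A = p)

include hX hS hTS hTχ' ha hAp in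
/-- A permutation commuting with the left action of `Q ≤ T` outside the kernel of `ρ` yields an element outside `T`
centralizing a conjugate of `Q`. -/
theorem exists_cent_of_rho_ne {Q : Subgroup Ω} (hQT : Q ≤ T) (g : rG ↥S X)
    (hcomm : ∀ (v : Q) (h₁ : (v : Ω) ∈ S) (x : X), (g : Equiv.Perm X) (((⟨v, h₁⟩ : ↥S), (1 : ↥S)) • x) = ((⟨v, h₁⟩ : ↥S), (1 : ↥S)) • (g : Equiv.Perm X) x)
    (hne : rho hξ χ g ≠ 1) :
    ∃ φ : Q →* Ω, φ ∈ F.Hom Q ∧ ∃ w : ↥S, (∀ v : Q, (w : Ω) * φ v = φ v * w) ∧ χ w ≠ 1 := by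
  by_contra hcon
  push_neg at hcon
  apply hne
  have hQS : Q ≤ S := hQT.trans hTS
  haveI : Finite (Q.subgroupOf S) := inferInstance
  have hQ' : IsPGroup p (Q.subgroupOf S) := hS.to_subgroup _
  have hexp : ∀ a : A, a ^ p = 1 := fun a => by rw [← hAp]; exact pow_card_eq_one'
  refine rho_eq_one_of_commute hξ χ (p := p) (Q.subgroupOf S) hQ' hexp hX.free g (fun v hv x => ?_) (fun v hv b hb => ?_) (fun b w hb h => ?_)
  · exact hcomm ⟨v, hv⟩ v.2 x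
  · rw [ha v b hb]
    exact hTχ' v (hQT hv)
  · obtain ⟨P, ψ, hψ, hst⟩ := hX.hG b
    have hgr : ∀ v v' : ↥S, (v, v') • b = b → ∃ h : (v : Ω) ∈ P, ψ ⟨v, h⟩ = v' := by
      intro v v' hv
      have h1 : (v, v') ∈ gr S P ψ := by
        rw [← hst]
        exact hv
      exact h1
    have hQP : Q ≤ P := by
      intro x hx
      obtain ⟨v', hv', -⟩ := h ⟨x, hQS hx⟩ hx
      exact (hgr _ _ hv').1
    have hφ := restrict_mem hψ hQP
    refine hcon _ hφ w (fun v => ?_)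
    obtain ⟨v', hv', hc⟩ := h ⟨v, hQS v.2⟩ v.2
    obtain ⟨h1, h2⟩ := hgr _ _ hv'
    have h3 : (ψ.comp (Subgroup.inclusion hQP)) v = v' := h2
    rw [h3]
    exact congrArg Subtype.val hc

include hS hF hinv in
/-- An element outside `T` centralizing a conjugate gives one centralizing a fully normalized conjugate. -/
theorem exists_cent_of_conj {Q R : Subgroup Ω} (hQ : F.IsFullyNormalized Q) (hRQ : F.IsConj R Q) {φ' : R →* Ω} (hφ' : φ' ∈ F.Hom R)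
    {w : ↥S} (hw : ∀ v : R, (w : Ω) * φ' v = φ' v * w) : ∃ z : ↥S, (∀ q : Q, (z : Ω) * q = q * z) ∧ χ z = χ w := by
  have hconj : F.IsConj φ'.range Q := isConj_trans (isConj_symm ⟨φ', hφ', rfl⟩) hRQ
  obtain ⟨θ, hθ, hr⟩ := hconj
  obtain ⟨ψ, hψ, hag⟩ := (receptive_of_fullyNormalized hS hF hQ).2 _ θ hθ hr
  have hwc : (w : Ω) ∈ centralizerIn S φ'.range := by
    refine ⟨w.2, ?_⟩
    show (w : Ω) ∈ Subgroup.centralizer _
    rw [Subgroup.mem_centralizer_iff]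
    rintro _ ⟨v, rfl⟩
    exact (hw v).symm
  have hwN := centralizerIn_le_extender θ hwc
  refine ⟨⟨ψ ⟨w, hwN⟩, val_mem hψ _⟩, fun q => ?_, hinv _ ψ hψ ⟨w, hwN⟩⟩
  have hq : (q : Ω) ∈ θ.range := by rw [hr]; exact q.2
  obtain ⟨y, hy⟩ := hq
  have hyN := le_extender hθ y.2
  have h1 := hag y y.2 hyN
  rw [show (⟨(y : Ω), y.2⟩ : φ'.range) = y from rfl] at h1
  rw [hy] at h1
  show ψ ⟨w, hwN⟩ * (q : Ω) = q * ψ ⟨w, hwN⟩
  rw [← h1, ← map_mul, ← map_mul]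
  congr 1
  apply Subtype.ext
  obtain ⟨v, hv⟩ := y.2
  show (w : Ω) * (y : Ω) = y * w
  rw [← hv]
  exact hw v

omit [Finite S] in
theorem card_normalizerIn_le_cj [Finite S] {s : Ω} (hs : s ∈ S) (Q : Subgroup Ω) :
    Nat.card (normalizerIn S Q) ≤ Nat.card (normalizerIn S (cj s Q)) := by
  rw [← card_cj s (normalizerIn S Q)]
  refine card_le_of_le (S := S) ?_ (normalizerIn_le _)
  rintro _ ⟨x, ⟨hx1, hx2⟩, rfl⟩
  exact ⟨S.mul_mem (S.mul_mem hs hx1) (S.inv_mem hs), mem_normalizer_cj hx2⟩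

include hX hS hF hTχ hTχ' ha hinv hAp in
/-- Every subgroup of `T` is conjugate in the new system to a subgroup fully normalized in `F`. -/
theorem exists_conj_fullyNormalized (hcop : (Fintype.card {x : X // ξ x = 1}).Coprime p) (hsurj : Function.Surjective χ) {P : Subgroup Ω} (hP : P ≤ T) :
    ∃ Q, (parkSystem (F := F) hξ χ hTS hTχ' ha).IsConj P Q ∧ F.IsFullyNormalized Q := by
  obtain ⟨Q₁, ⟨φ₁, hφ₁, hr₁⟩, hQ₁⟩ := exists_fullyNormalized_conj (F := F) (hP.trans hTS)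
  obtain ⟨g₁, hg₁⟩ := exists_intw hX hφ₁
  have hcop' : (Nat.card A).Coprime (Fintype.card {x : X // ξ x = 1}) := by
    rw [hAp]
    exact hcop.symm
  obtain ⟨s, hs⟩ := hsurj ((powCoprime hcop').symm (rho hξ χ g₁)⁻¹)
  have hs' : χ s ^ Fintype.card {x : X // ξ x = 1} = (rho hξ χ g₁)⁻¹ := by
    rw [hs]
    exact (powCoprime hcop').apply_symm_apply _
  let φ : P →* Ω := (conjHom S (s : Ω)).comp (φ₁.codRestrict S (val_mem hφ₁))
  have hφ : φ ∈ F.Hom P := F.comp_mem hφ₁ (F.conj_mem le_rfl s.2) (val_mem hφ₁)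
  have hφT : ∀ x : P, φ x ∈ T := by
    intro x
    apply hTχ ⟨φ x, val_mem hφ x⟩
    rw [hinv P φ hφ x]
    exact hTχ' _ (hP x.2)
  have hint : Intw φ (lH s * g₁) := intw_comp hg₁ (intw_conj s.2) (val_mem hφ₁) le_rfl (val_mem hφ₁)
  have hrho : rho hξ χ (lH s * g₁) = 1 := by
    rw [map_mul, rho_lH hξ χ ha, hs', inv_mul_cancel]
  refine ⟨φ.range, ⟨φ, ⟨hφ, hP, hφT, _, hrho, hint⟩, rfl⟩, ?_⟩
  have hcj : φ.range = cj (s : Ω) Q₁ := by
    ext y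
    rw [mem_cj, ← hr₁]
    constructor
    · rintro ⟨x, rfl⟩
      refine ⟨x, ?_⟩
      show φ₁ x = (s : Ω)⁻¹ * ((s : Ω) * φ₁ x * (s : Ω)⁻¹) * s
      group
    · rintro ⟨x, hx⟩
      refine ⟨x, ?_⟩
      show (s : Ω) * φ₁ x * (s : Ω)⁻¹ = y
      rw [hx]
      group
  have hconj : F.IsConj Q₁ φ.range := isConj_trans (isConj_symm ⟨φ₁, hφ₁, hr₁⟩) ⟨φ, hφ, rfl⟩
  refine ⟨isConj_le_right hconj, fun R hR => ?_⟩
  refine (hQ₁.2 R (isConj_trans hconj hR)).trans ?_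
  rw [hcj]
  exact card_normalizerIn_le_cj s.2 Q₁

include hX hS hF hTχ hTχ' ha hinv hAp in
/-- A subgroup of `T` fully normalized in `F` is fully automized in the new system. -/
theorem isFullyAutomized_park (hcop : (Fintype.card {x : X // ξ x = 1}).Coprime p) {Q : Subgroup Ω} (hQT : Q ≤ T) (hQ : F.IsFullyNormalized Q) :
    (parkSystem (F := F) hξ χ hTS hTχ' ha).IsFullyAutomized p Q := by
  set E := parkSystem (F := F) hξ χ hTS hTχ' ha with hE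
  have hQS : Q ≤ S := hQT.trans hTS
  haveI : Finite T := finite_of_le hTS
  haveI : Finite Q := finite_of_le hQS
  refine ⟨hQT, ?_⟩
  have hFa := (fullyNormalized_spec hS hF hQ).2
  have hA₀ : E.autGroup Q ≤ F.autGroup Q := by
    intro α hα
    exact mem_autGroup_of_isIso (((mem_autGroup_iff hQT).1 hα).1)
  have hn : ∀ a ∈ F.autGroup Q, ∀ x ∈ E.autGroup Q, a * x * a⁻¹ ∈ E.autGroup Q := by
    intro a ha' x hx
    have h1 : a * x * a⁻¹ ∈ F.autGroup Q := Subgroup.mul_mem _ (Subgroup.mul_mem _ ha' (hA₀ hx)) (Subgroup.inv_mem _ ha')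
    obtain ⟨-, -, -, gx, hgx, hx'⟩ := (mem_autGroup_iff hQT).1 hx
    obtain ⟨ga, hga⟩ := exists_intw hX ((mem_autGroup_iff hQS).1 ha')
    refine (mem_autGroup_iff hQT).2 ⟨(mem_autGroup_iff hQS).1 h1, hQT, fun y => hQT (a * x * a⁻¹ |>.toMonoidHom y).2, ga * (gx * ga⁻¹), ?_, ?_⟩
    · rw [map_mul, map_mul, map_inv, hgx, one_mul, mul_inv_cancel]
    · have hinvI : Intw (fun y : Q => (((a⁻¹ : MulAut Q) y : Q) : Ω)) ga⁻¹ := by
        refine intw_inv hga (fun y => ⟨(a⁻¹ : MulAut Q) y, ?_, rfl⟩) hQS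
        show ((a ((a⁻¹ : MulAut Q) y) : Q) : Ω) = y
        have : a ((a⁻¹ : MulAut Q) y) = y := by
          show (a * a⁻¹) y = y
          rw [mul_inv_cancel]
          rfl
        rw [this]
      have h2 := intw_comp (φ := fun y : Q => (((a⁻¹ : MulAut Q) y : Q) : Ω)) (ψ := fun y : Q => ((x y : Q) : Ω)) hinvI hx' (fun y => (a⁻¹ y).2) hQS (fun y => hQS (a⁻¹ y).2)
      have h3 := intw_comp h2 hga (fun y => (x ⟨_, (a⁻¹ y).2⟩).2) hQS (fun y => hQS (x ⟨_, (a⁻¹ y).2⟩).2)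
      exact h3
  have hp₁ : IsPGroup p (autInducedBy S Q) := isPGroup_autInducedBy hS hQS
  have hs := sylowIn_inf_of_normalIn hFa.2 hA₀ hn hp₁
  have hkey : autInducedBy S Q ⊓ E.autGroup Q = autInducedBy T Q := by
    apply le_antisymm
    · rintro α ⟨hα₁, hα₂⟩
      obtain ⟨s, hs, hsv⟩ := mem_autInducedBy_iff.1 hα₁
      obtain ⟨-, -, -, g, hg1, hg2⟩ := (mem_autGroup_iff hQT).1 hα₂
      by_cases hχ : χ ⟨s, hs⟩ = 1
      · exact mem_autInducedBy_iff.2 ⟨s, hTχ _ hχ, hsv⟩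
      · -- the commuting permutation
        let h : rG ↥S X := lH (⟨s, hs⟩⁻¹ : ↥S) * g
        have hcomm : ∀ (v : Q) (h₁ : (v : Ω) ∈ S) (x : X), (h : Equiv.Perm X) (((⟨v, h₁⟩ : ↥S), (1 : ↥S)) • x) = ((⟨v, h₁⟩ : ↥S), (1 : ↥S)) • (h : Equiv.Perm X) x := by
          intro v h₁ x
          show ((⟨s, hs⟩ : ↥S)⁻¹, (1 : ↥S)) • (g : Equiv.Perm X) _ = _ • ((⟨s, hs⟩ : ↥S)⁻¹, (1 : ↥S)) • (g : Equiv.Perm X) x
          rw [hg2 v h₁ (hQS (α v).2) x]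
          simp only [pp, one_mul]
          congr 2
          apply Subtype.ext
          show (s⁻¹ : Ω) * (Q.subtype.comp α.toMonoidHom v) = v * s⁻¹
          have := hsv v
          show (s⁻¹ : Ω) * ((α v : Q) : Ω) = v * s⁻¹
          rw [this]
          group
        have hexp : ∀ a : A, a ^ p = 1 := fun a => by rw [← hAp]; exact pow_card_eq_one'
        have hne : rho hξ χ h ≠ 1 := by
          show rho hξ χ (lH (⟨s, hs⟩⁻¹ : ↥S) * g) ≠ 1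
          rw [map_mul, hg1, mul_one, rho_lH hξ χ ha, map_inv, inv_pow]
          intro h1
          rw [inv_eq_one] at h1
          have h2 := orderOf_eq_prime (hexp _) hχ
          have h3 := orderOf_dvd_of_pow_eq_one h1
          rw [h2] at h3
          exact (Nat.Prime.coprime_iff_not_dvd hp.out).1 hcop.symm h3
        obtain ⟨φ, hφ, w, hw, hwχ⟩ := exists_cent_of_rho_ne hX hξ χ hS hTS hTχ' ha hAp hQT h hcomm hne
        obtain ⟨z, hz, hzw⟩ := exists_cent_of_conj χ hS hF hinv hQ (isConj_refl hQS) hφ hw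
        have hzne : χ z ≠ 1 := by rwa [hzw]
        obtain ⟨k, hk⟩ := mem_zpowers_of_prime_card hAp (g' := χ ⟨s, hs⟩) hzne
        have hk' : χ z ^ k = χ ⟨s, hs⟩ := hk
        let t : ↥S := ⟨s, hs⟩ * (z ^ k)⁻¹
        have ht : (t : Ω) ∈ T := by
          apply hTχ
          show χ (⟨s, hs⟩ * (z ^ k)⁻¹) = 1
          rw [map_mul, map_inv, map_zpow, hk', mul_inv_cancel]
        refine mem_autInducedBy_iff.2 ⟨t, ht, fun x => ?_⟩
        rw [hsv x]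
        have hzc : ((z ^ k : ↥S) : Ω) ∈ Subgroup.centralizer (Q : Set Ω) := by
          have h0 : (z : Ω) ∈ Subgroup.centralizer (Q : Set Ω) := by
            rw [Subgroup.mem_centralizer_iff]
            intro y hy
            exact (hz ⟨y, hy⟩).symm
          exact Subgroup.zpow_mem _ h0 k
        have h4 : ((z ^ k : ↥S) : Ω) * x = x * ((z ^ k : ↥S) : Ω) := (Subgroup.mem_centralizer_iff.1 hzc x x.2).symm
        show s * (x : Ω) * s⁻¹ = (s * ((z ^ k : ↥S) : Ω)⁻¹) * x * (s * ((z ^ k : ↥S) : Ω)⁻¹)⁻¹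
        have h5 : ((z ^ k : ↥S) : Ω)⁻¹ * (x : Ω) * ((z ^ k : ↥S) : Ω) = x := by
          rw [mul_assoc, inv_mul_eq_iff_eq_mul, h4]
        calc s * (x : Ω) * s⁻¹ = s * (((z ^ k : ↥S) : Ω)⁻¹ * (x : Ω) * ((z ^ k : ↥S) : Ω)) * s⁻¹ := by rw [h5]
          _ = _ := by group
    · intro α hα
      obtain ⟨t, ht, htv⟩ := mem_autInducedBy_iff.1 hα
      refine ⟨mem_autInducedBy_iff.2 ⟨t, hTS ht, htv⟩, ?_⟩
      exact autInducedBy_le_autGroup (F := E) hQT hα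
  rw [hkey] at hs
  exact hs

include hX hS hF hTχ hTχ' ha hinv hAp in
/-- A subgroup of `T` fully normalized in `F` is receptive in the new system. -/
theorem isReceptive_park (hcop : (Fintype.card {x : X // ξ x = 1}).Coprime p) {Q : Subgroup Ω} (hQT : Q ≤ T) (hQ : F.IsFullyNormalized Q) :
    (parkSystem (F := F) hξ χ hTS hTχ' ha).IsReceptive Q := by
  set E := parkSystem (F := F) hξ χ hTS hTχ' ha with hE
  have hQS : Q ≤ S := hQT.trans hTS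
  refine ⟨hQT, fun P φ hφ hr => ?_⟩
  have hφE := hφ
  obtain ⟨hφF, hPT, hφT, g, hg1, hg2⟩ := hφ
  obtain ⟨ψ₁, hψ₁, hag₁⟩ := (receptive_of_fullyNormalized hS hF hQ).2 P φ hφF hr
  have hNS : extender T P φ ≤ extender S P φ := by
    refine Subgroup.closure_mono ?_
    rintro y ⟨h1, h2, h, hh, H⟩
    exact ⟨hTS h1, h2, h, hTS hh, H⟩
  have hNT : extender T P φ ≤ T := (extender_le_normalizerIn P φ).trans (normalizerIn_le P)
  have hPN : P ≤ extender T P φ := le_extender (F := E) hφE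
  let ν : extender T P φ →* Ω := ψ₁.comp (Subgroup.inclusion hNS)
  have hν : ν ∈ F.Hom (extender T P φ) := restrict_mem hψ₁ hNS
  have hνT : ∀ x, ν x ∈ T := by
    intro x
    apply hTχ ⟨ν x, val_mem hν x⟩
    rw [hinv _ ν hν x]
    exact hTχ' _ (hNT x.2)
  have hνP : ∀ (x : Ω) (hP : x ∈ P) (hN : x ∈ extender T P φ), ν ⟨x, hN⟩ = φ ⟨x, hP⟩ := fun x hP hN => hag₁ x hP (hNS hN)
  obtain ⟨gν, hgν⟩ := exists_intw hX hν
  by_cases hρ : rho hξ χ gν = 1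
  · exact ⟨ν, ⟨hν, hNT, hνT, gν, hρ, hgν⟩, hνP⟩
  let h : rG ↥S X := gν⁻¹ * g
  have hcomm : ∀ (v : P) (h₁ : (v : Ω) ∈ S) (x : X), (h : Equiv.Perm X) (((⟨v, h₁⟩ : ↥S), (1 : ↥S)) • x) = ((⟨v, h₁⟩ : ↥S), (1 : ↥S)) • (h : Equiv.Perm X) x := by
    intro v h₁ x
    have hφv : φ v ∈ S := val_mem hφF v
    have h2 := hg2 v h₁ hφv x
    have h3 := hgν ⟨v, hPN v.2⟩ h₁ (val_mem hν _) ((gν⁻¹ : rG ↥S X) • (g : Equiv.Perm X) x)
    have e1 : (⟨ν ⟨v, hPN v.2⟩, val_mem hν _⟩ : ↥S) = ⟨φ v, hφv⟩ := Subtype.ext (hνP v v.2 (hPN v.2))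
    have e2 : (gν : Equiv.Perm X) ((gν⁻¹ : rG ↥S X) • (g : Equiv.Perm X) x) = (g : Equiv.Perm X) x := by
      show (gν : Equiv.Perm X) (((gν : Equiv.Perm X))⁻¹ _) = _
      simp
    rw [e1, e2] at h3
    show ((gν : Equiv.Perm X))⁻¹ ((g : Equiv.Perm X) _) = _ • ((gν : Equiv.Perm X))⁻¹ ((g : Equiv.Perm X) x)
    rw [h2, ← h3]
    simp
    rfl
  have hne : rho hξ χ h ≠ 1 := by
    show rho hξ χ (gν⁻¹ * g) ≠ 1
    rw [map_mul, map_inv, hg1, mul_one]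
    exact inv_ne_one.2 hρ
  obtain ⟨φ', hφ', w, hw, hwχ⟩ := exists_cent_of_rho_ne hX hξ χ hS hTS hTχ' ha hAp hPT h hcomm hne
  obtain ⟨z, hz, hzw⟩ := exists_cent_of_conj χ hS hF hinv hQ ⟨φ, hφF, hr⟩ hφ' hw
  have hzne : χ z ≠ 1 := by rwa [hzw]
  have hcop' : (Nat.card A).Coprime (Fintype.card {x : X // ξ x = 1}) := by
    rw [hAp]
    exact hcop.symm
  obtain ⟨k, hk⟩ := mem_zpowers_of_prime_card hAp (g' := (powCoprime hcop').symm (rho hξ χ gν)⁻¹) hzne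
  have hk' : χ z ^ k = (powCoprime hcop').symm (rho hξ χ gν)⁻¹ := hk
  have hs' : χ (z ^ k) ^ Fintype.card {x : X // ξ x = 1} = (rho hξ χ gν)⁻¹ := by
    rw [map_zpow, hk']
    exact (powCoprime hcop').apply_symm_apply _
  let ψ : extender T P φ →* Ω := (conjHom S ((z ^ k : ↥S) : Ω)).comp (ν.codRestrict S (val_mem hν))
  have hψ : ψ ∈ F.Hom (extender T P φ) := F.comp_mem hν (F.conj_mem le_rfl (z ^ k).2) (val_mem hν)
  have hψT : ∀ x, ψ x ∈ T := by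
    intro x
    apply hTχ ⟨ψ x, val_mem hψ x⟩
    rw [hinv _ ψ hψ x]
    exact hTχ' _ (hNT x.2)
  have hint : Intw ψ (lH (z ^ k) * gν) := intw_comp hgν (intw_conj (z ^ k).2) (val_mem hν) le_rfl (val_mem hν)
  have hrho : rho hξ χ (lH (z ^ k) * gν) = 1 := by
    rw [map_mul, rho_lH hξ χ ha, hs', inv_mul_cancel]
  refine ⟨ψ, ⟨hψ, hNT, hψT, _, hrho, hint⟩, fun x hP hN => ?_⟩
  show ((z ^ k : ↥S) : Ω) * ν ⟨x, hN⟩ * ((z ^ k : ↥S) : Ω)⁻¹ = φ ⟨x, hP⟩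
  rw [hνP x hP hN]
  have hzc : ((z ^ k : ↥S) : Ω) ∈ Subgroup.centralizer (Q : Set Ω) := by
    have h0 : (z : Ω) ∈ Subgroup.centralizer (Q : Set Ω) := by
      rw [Subgroup.mem_centralizer_iff]
      intro y hy
      exact (hz ⟨y, hy⟩).symm
    exact Subgroup.zpow_mem _ h0 k
  have hmem : φ ⟨x, hP⟩ ∈ Q := by
    rw [← hr]
    exact ⟨_, rfl⟩
  have h4 := Subgroup.mem_centralizer_iff.1 hzc _ hmem
  rw [← h4]
  group

include hX hS hF hTχ hTχ' ha hinv hAp in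
theorem isSaturated_park (hcop : (Fintype.card {x : X // ξ x = 1}).Coprime p) (hsurj : Function.Surjective χ) :
    (parkSystem (F := F) hξ χ hTS hTχ' ha).IsSaturated p := by
  intro P hP
  obtain ⟨Q, hc, hfn⟩ := exists_conj_fullyNormalized hX hξ χ hS hF hTS hTχ hTχ' ha hinv hAp hcop hsurj hP
  have hQT : Q ≤ T := isConj_le_right hc
  exact ⟨Q, hc, isFullyAutomized_park hX hξ χ hS hF hTS hTχ hTχ' ha hinv hAp hcop hQT hfn,
    isReceptive_park hX hξ χ hS hF hTS hTχ hTχ' ha hinv hAp hcop hQT hfn⟩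

include hX hAp in
/-- The `p`-residual of `Aut_F(P)` lies in the automorphism group of the new system. -/
theorem pResidual_le_park {P : Subgroup Ω} (hP : P ≤ T) :
    (pResidual p (F.autGroup P)).map (F.autGroup P).subtype ≤ (parkSystem (F := F) hξ χ hTS hTχ' ha).autGroup P := by
  have hPS : P ≤ S := hP.trans hTS
  rw [pResidual, Subgroup.map_le_iff_le_comap, Subgroup.closure_le]
  rintro α hα
  show (α : MulAut P) ∈ (parkSystem (F := F) hξ χ hTS hTχ' ha).autGroup P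
  have hα' : Nat.Coprime (orderOf α) p := hα
  obtain ⟨g, hg⟩ := exists_intw hX ((mem_autGroup_iff hPS).1 α.2)
  have hexp : ∀ a : A, a ^ p = 1 := fun a => by rw [← hAp]; exact pow_card_eq_one'
  -- powers
  have hpow : ∀ j : ℕ, Intw (fun y : P => ((((α : MulAut P) ^ j) y : P) : Ω)) (g ^ j) := by
    intro j
    induction j with
    | zero =>
      intro v h₁ h₂ x
      rfl
    | succ j ih =>
      have h3 := intw_comp (φ := fun y : P => ((((α : MulAut P) ^ j) y : P) : Ω)) (ψ := fun y : P => (((α : MulAut P) y : P) : Ω))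
        ih hg (fun y => (((α : MulAut P) ^ j) y).2) hPS (fun y => hPS (((α : MulAut P) ^ j) y).2)
      rw [pow_succ' g, pow_succ' (α : MulAut P)]
      exact h3
  obtain ⟨m, hm⟩ : ∃ m, m ≡ 1 [MOD orderOf α] ∧ m ≡ 0 [MOD p] := by
    let c := Nat.chineseRemainder hα' 1 0
    exact ⟨c, c.2.1, c.2.2⟩
  have hαm : α ^ m = α := by
    have := (pow_eq_pow_iff_modEq (x := α) (n := m) (m := 1)).2 hm.1
    rwa [pow_one] at this
  have hαm' : (α : MulAut P) ^ m = α := by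
    have := congrArg Subtype.val hαm
    exact this
  have hdvd : p ∣ m := (Nat.modEq_zero_iff_dvd).1 hm.2
  obtain ⟨m', rfl⟩ := hdvd
  refine (mem_autGroup_iff hP).2 ⟨(mem_autGroup_iff hPS).1 α.2, hP, fun y => hP ((α : MulAut P) y).2, g ^ (p * m'), ?_, ?_⟩
  · rw [map_pow, pow_mul, hexp, one_pow]
  · have h5 := hpow (p * m')
    rw [hαm'] at h5
    exact h5

end Sat

end System

end Cfsg.Agent.Lib.Fusion
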