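/-
Existence of the saturated subsystems of `p`-power index.
-/
import Cfsg.Agent.Lib.Fusion.Park
import Cfsg.Agent.Lib.Fusion.PIndex

set_option autoImplicit false

namespace Cfsg.Agent.Lib.Fusion

open Cfsg Cfsg.FusionSystem Cfsg.Agent.Lib.Fusion2

variable {Ω : Type*} [Group Ω] {S T : Subgroup Ω} {F : FusionSystem S} {p : ℕ} [hp : Fact p.Prime]

/-- The step of index `p`. -/
theorem exists_pPowerIndex_step [Finite S] (hS : IsPGroup p S) (hF : F.IsSaturated p) (hTS : T ≤ S)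
    (hT : F.hyperfocalSubgroup p ≤ T) (hidx : (T.subgroupOf S).index = p) :
    ∃ E : FusionSystem T, E.IsSaturated p ∧ E.HasPPowerIndexIn F p := by
  classical
  have hppos : p.Prime := hp.out
  haveI hTn : (T.subgroupOf S).Normal := by
    have hne : Nat.card ↥S ≠ 1 := by
      intro h
      have h1 : (T.subgroupOf S).index = 1 := by
        have := Subgroup.index_dvd_card (T.subgroupOf S)
        rw [h] at this
        exact Nat.dvd_one.1 this
      rw [hidx] at h1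
      exact hppos.one_lt.ne' h1
    refine Subgroup.normal_of_index_eq_minFac_card ?_
    rw [hidx]
    obtain ⟨n, hn⟩ := IsPGroup.iff_card.1 hS
    rw [hn]
    have hn0 : n ≠ 0 := by
      rintro rfl
      apply hne
      rw [hn, pow_zero]
    rw [Nat.Prime.pow_minFac hppos hn0]
  have hquot : Nat.card (↥S ⧸ T.subgroupOf S) = p := hidx
  let e : (↥S ⧸ T.subgroupOf S) ≃* Multiplicative (ZMod p) :=
    mulEquivOfPrimeCardEq hquot (by rw [Nat.card_eq_fintype_card, Fintype.card_multiplicative, ZMod.card])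
  let χ : ↥S →* Multiplicative (ZMod p) := e.toMonoidHom.comp (QuotientGroup.mk' (T.subgroupOf S))
  have hχ : ∀ t : ↥S, χ t = 1 ↔ (t : Ω) ∈ T := by
    intro t
    show e (QuotientGroup.mk' (T.subgroupOf S) t) = 1 ↔ _
    rw [map_eq_one_iff e e.injective]
    show ((t : ↥S ⧸ T.subgroupOf S) = 1) ↔ _
    rw [QuotientGroup.eq_one_iff]
    rfl
  have hTχ : ∀ t : ↥S, χ t = 1 → (t : Ω) ∈ T := fun t => (hχ t).1
  have hTχ' : ∀ t : ↥S, (t : Ω) ∈ T → χ t = 1 := fun t => (hχ t).2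
  have hsurj : Function.Surjective χ := e.surjective.comp (QuotientGroup.mk'_surjective _)
  have hAp : Nat.card (Multiplicative (ZMod p)) = p := by
    rw [Nat.card_eq_fintype_card, Fintype.card_multiplicative, ZMod.card]
  -- the focal subgroup lies in `T`
  have hfoc : F.focalSubgroup ≤ T := by
    rw [focal_eq_hyp_sup hS hF, sup_le_iff]
    refine ⟨hT, ?_⟩
    rw [Subgroup.commutator_le]
    intro a ha b hb
    show a * b * a⁻¹ * b⁻¹ ∈ T
    apply hTχ ⟨a * b * a⁻¹ * b⁻¹, S.mul_mem (S.mul_mem (S.mul_mem ha hb) (S.inv_mem ha)) (S.inv_mem hb)⟩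
    have e1 : (⟨a * b * a⁻¹ * b⁻¹, S.mul_mem (S.mul_mem (S.mul_mem ha hb) (S.inv_mem ha)) (S.inv_mem hb)⟩ : ↥S) = (⟨a, ha⟩ : ↥S) * ⟨b, hb⟩ * (⟨a, ha⟩ : ↥S)⁻¹ * (⟨b, hb⟩ : ↥S)⁻¹ := rfl
    rw [e1, map_mul, map_mul, map_mul, map_inv, map_inv]
    rw [mul_comm (χ ⟨a, ha⟩), mul_assoc, mul_assoc, mul_inv_cancel_left, mul_inv_cancel]
  have hinv : ∀ (P : Subgroup Ω) (φ : P →* Ω) (hφ : φ ∈ F.Hom P) (x : P), χ ⟨φ x, val_mem hφ x⟩ = χ ⟨x, le_of_hom hφ x.2⟩ := by
    intro P φ hφ x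
    have h1 : (x : Ω)⁻¹ * φ x ∈ F.focalSubgroup := Subgroup.subset_closure ⟨P, φ, x, hφ, rfl⟩
    have h2 := hTχ' ⟨(x : Ω)⁻¹ * φ x, S.mul_mem (S.inv_mem (le_of_hom hφ x.2)) (val_mem hφ x)⟩ (hfoc h1)
    have e1 : (⟨(x : Ω)⁻¹ * φ x, S.mul_mem (S.inv_mem (le_of_hom hφ x.2)) (val_mem hφ x)⟩ : ↥S) = (⟨x, le_of_hom hφ x.2⟩ : ↥S)⁻¹ * ⟨φ x, val_mem hφ x⟩ := rfl
    rw [e1, map_mul, map_inv, inv_mul_eq_one] at h2
    exact h2.symm
  obtain ⟨m, hX⟩ := exists_isCharBiset hS hF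
  have hfin : Finite (XS m) := inferInstance
  obtain ⟨ξ, hξ, hξT⟩ := hX.exists_xi_of (T.subgroupOf S) (fun P φ hφ => ⟨1, fun x => by
    refine ⟨⟨φ x * (x : Ω)⁻¹, S.mul_mem (val_mem hφ x) (S.inv_mem (le_of_hom hφ x.2))⟩, ?_, by simp⟩
    apply Subgroup.mem_subgroupOf.2
    apply (hχ _).1
    have e1 : (⟨φ x * (x : Ω)⁻¹, S.mul_mem (val_mem hφ x) (S.inv_mem (le_of_hom hφ x.2))⟩ : ↥S) = ⟨φ x, val_mem hφ x⟩ * (⟨x, le_of_hom hφ x.2⟩ : ↥S)⁻¹ := rfl
    rw [e1, map_mul, map_inv, hinv P φ hφ x, mul_inv_cancel]⟩)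
  letI : Fintype {x : XS m // ξ x = 1} := Fintype.ofFinite _
  have ha : ∀ (u : ↥S) (b : XS m), ξ b = 1 → χ (hh ξ u b) = χ u := by
    intro u b hb
    have h1 := hTχ' _ (Subgroup.mem_subgroupOf.1 (hξT u b hb))
    rw [map_mul, map_inv, mul_inv_eq_one] at h1
    exact h1
  have hcop : (Fintype.card {x : XS m // ξ x = 1}).Coprime p := by
    rw [← Nat.card_eq_fintype_card, IsCharBiset.card_sec_eq_num hξ]
    exact hX.coprime_num hS hF
  refine ⟨parkSystem (F := F) hξ χ hTS hTχ' ha, isSaturated_park hX hξ χ hS hF hTS hTχ hTχ' ha hinv hAp hcop hsurj,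
    fun P φ h => h.1, hT, fun P hP => pResidual_le_park hX hξ χ hTS hTχ' ha hAp hP⟩

theorem hyp_le_of_subsystem {M : Subgroup Ω} {E₁ : FusionSystem M} (hE : E₁.IsSubsystemOf F) (hMS : M ≤ S) :
    E₁.hyperfocalSubgroup p ≤ F.hyperfocalSubgroup p := by
  rw [hyperfocalSubgroup, Subgroup.closure_le]
  rintro _ ⟨P, α, x, hP, hα, rfl⟩
  have h1 := pResidual_map_le_of_subsystem hE hP (p := p) ⟨α, hα, rfl⟩
  obtain ⟨α', hα', he⟩ := h1
  have h2 : ((α' : MulAut P)) = (α : MulAut P) := he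
  refine Subgroup.subset_closure ⟨P, α', x, hP.trans hMS, hα', ?_⟩
  rw [h2]

/-- **Existence of the saturated subsystem of `p`-power index.** -/
theorem exists_pPowerIndex : ∀ (n : ℕ) (S : Subgroup Ω) [Finite S] (F : FusionSystem S) (_ : IsPGroup p S) (_ : F.IsSaturated p)
    (T : Subgroup Ω) (_ : T ≤ S) (_ : F.hyperfocalSubgroup p ≤ T), Nat.card S = n →
    ∃ E : FusionSystem T, E.IsSaturated p ∧ E.HasPPowerIndexIn F p := by
  intro n
  induction n using Nat.strong_induction_on with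
  | _ n ih =>
  intro S _ F hS hF T hTS hT hn
  by_cases hTe : T = S
  · subst hTe
    exact ⟨F, hF, fun P => Set.Subset.rfl, hT, fun P _ => Subgroup.map_subtype_le _⟩
  have hppos : p.Prime := hp.out
  obtain ⟨N, hN⟩ := IsPGroup.iff_card.1 hS
  have hH : IsPGroup p (T.subgroupOf S) := hS.to_subgroup _
  obtain ⟨a, ha⟩ := IsPGroup.iff_card.1 hH
  have hcardT : Nat.card (T.subgroupOf S) = Nat.card T := Nat.card_congr (Subgroup.subgroupOfEquivOfLe hTS).toEquiv
  have haN : a < N := by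
    have h1 : Nat.card T < Nat.card S := by
      refine lt_of_le_of_ne (card_le_card_S hTS) (fun h => hTe ?_)
      exact eq_of_le_of_card_le hTS le_rfl h.ge
    rw [← hcardT, ha, hN] at h1
    exact (Nat.pow_lt_pow_iff_right hppos.one_lt).1 h1
  obtain ⟨K, hK, hHK⟩ := Sylow.exists_subgroup_card_pow_prime_le p (n := a) (m := N - 1) (by
    rw [hN]
    exact pow_dvd_pow p (by omega)) (T.subgroupOf S) ha (by omega)
  let M : Subgroup Ω := K.map S.subtype
  have hMS : M ≤ S := by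
    rintro _ ⟨x, -, rfl⟩
    exact x.2
  have hTM : T ≤ M := fun t ht => ⟨⟨t, hTS ht⟩, hHK (Subgroup.mem_subgroupOf.2 ht), rfl⟩
  have hMK : M.subgroupOf S = K := Subgroup.comap_map_eq_self_of_injective S.subtype_injective K
  have hidx : (M.subgroupOf S).index = p := by
    rw [hMK]
    have h1 := Subgroup.card_mul_index K
    rw [hK, hN] at h1
    have h2 : p ^ N = p ^ (N - 1) * p := by
      rw [← pow_succ]
      congr 1
      omega
    rw [h2] at h1
    exact Nat.eq_of_mul_eq_mul_left (by have := hppos.pos; positivity) h1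
  obtain ⟨E₁, hE₁, hE₁i⟩ := exists_pPowerIndex_step hS hF hMS (hT.trans hTM) hidx
  haveI : Finite M := finite_of_le hMS
  have hcardM : Nat.card M < n := by
    have h1 : Nat.card M = Nat.card K := Subgroup.card_map_of_injective S.subtype_injective
    rw [h1, hK, ← hn, hN]
    exact (Nat.pow_lt_pow_iff_right hppos.one_lt).2 (by omega)
  obtain ⟨E, hE, hEi⟩ := ih _ hcardM M E₁ (hS.to_le hMS) hE₁ T hTM ((hyp_le_of_subsystem hE₁i.1 hMS).trans hT) rfl
  refine ⟨E, hE, fun P => (hEi.1 P).trans (hE₁i.1 P), hT, fun P hP => ?_⟩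
  rw [pResidual, Subgroup.map_le_iff_le_comap, Subgroup.closure_le]
  rintro α hα
  have h1 : (α : MulAut P) ∈ E₁.autGroup P := hE₁i.2.2 P (hP.trans hTM) ⟨α, Subgroup.subset_closure hα, rfl⟩
  have hα' : Nat.Coprime (orderOf α) p := hα
  have h2 : (⟨(α : MulAut P), h1⟩ : E₁.autGroup P) ∈ pResidual p (E₁.autGroup P) := by
    refine Subgroup.subset_closure ?_
    show Nat.Coprime (orderOf (⟨(α : MulAut P), h1⟩ : E₁.autGroup P)) p
    rw [Subgroup.orderOf_mk, Subgroup.orderOf_coe]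
    exact hα'
  exact hEi.2.2 P hP ⟨_, h2, rfl⟩

end Cfsg.Agent.Lib.Fusion
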