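/-
Pulling constrained fusion systems of subgroups back along injective homomorphisms; fusion systems of subnormal subgroups.
-/
import Cfsg.Agent.Lib.Fusion.NormalGroup
import Cfsg.Agent.Lib.Fusion2.NormalSub

set_option autoImplicit false
set_option linter.unusedSectionVars false
set_option linter.style.haveILetI false

namespace Cfsg.Agent.Lib.Fusion

open Cfsg Cfsg.FusionSystem

variable {A G : Type*} [Group A] [Group G] {p : ℕ}

/-- Pull back a constrained system `F_T(H)`, `H = j(A)`, along `j`. -/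
theorem isConstrained_comap (j : A →* G) (hj : Function.Injective j) {H T : Subgroup G} (hTH : T ≤ H) (hH : j.range = H)
    (hsat : (groupFusionSystem (T.comap j)).IsSaturated p)
    (hE : (fusionSystemOfSubgroup H T hTH).IsConstrained p) :
    (groupFusionSystem (T.comap j)).IsConstrained p := by
  obtain ⟨-, R, hRn, hRc⟩ := hE
  have hjH : ∀ g : A, j g ∈ H := fun g => hH ▸ ⟨g, rfl⟩
  have hHj : ∀ h ∈ H, ∃ g : A, j g = h := fun h hh => by
    rw [← hH] at hh
    exact hh
  have hRT : R ≤ T := hRn.1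
  refine ⟨hsat, R.comap j, ⟨fun x hx => hRT hx, fun P φ hφ => ?_⟩, ⟨fun x hx => hRT hx, fun Q' hQ' => ?_⟩⟩
  · obtain ⟨hPT, hφT, g, hg⟩ := hφ
    have hP₁ : P.map j ≤ T := by
      rintro _ ⟨x, hx, rfl⟩
      exact hPT hx
    have hφ₁ : conjHom (P.map j) (j g) ∈ (fusionSystemOfSubgroup H T hTH).Hom (P.map j) := by
      refine ⟨hP₁, ?_, j g, hjH g, fun x => rfl⟩
      rintro ⟨_, x, hx, rfl⟩
      have h1 := hφT ⟨x, hx⟩
      rw [hg] at h1
      have h2 : j (g * x * g⁻¹) ∈ T := h1
      simpa using h2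
    obtain ⟨ψ₁, hψ₁, hag, hmap⟩ := hRn.2 (P.map j) _ hφ₁
    obtain ⟨-, hψT, h, hh, hψv⟩ := hψ₁
    obtain ⟨g', rfl⟩ := hHj h hh
    have hsup : (P ⊔ R.comap j).map j ≤ P.map j ⊔ R := by
      rw [Subgroup.map_sup]
      exact sup_le_sup le_rfl (Subgroup.map_comap_le _ _)
    have hval : ∀ y : ↥(P ⊔ R.comap j), j (g' * y * g'⁻¹) ∈ T := by
      intro y
      have h1 := hψT ⟨j y, hsup ⟨y, y.2, rfl⟩⟩
      rw [hψv] at h1
      simpa using h1
    have hval2 : ∀ y ∈ R.comap j, j (g' * y * g'⁻¹) ∈ R := by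
      intro y hy
      have hmem : j y ∈ ((R.subgroupOf (P.map j ⊔ R)).map ψ₁) ↔ j y ∈ R := by rw [hmap]
      have hy' : j y ∈ R := hy
      have h3 : ψ₁ ⟨j y, (le_sup_right : R ≤ P.map j ⊔ R) hy'⟩ ∈ (R.subgroupOf (P.map j ⊔ R)).map ψ₁ :=
        ⟨⟨j y, (le_sup_right : R ≤ P.map j ⊔ R) hy'⟩, hy', rfl⟩
      rw [hmap, hψv] at h3
      simpa using h3
    refine ⟨conjHom (P ⊔ R.comap j) g', ⟨sup_le hPT (fun x hx => hRT hx), fun y => hval y, g', fun x => rfl⟩, fun x => ?_, ?_⟩
    · apply hj
      have h1 := hag (⟨j x, ⟨x, x.2, rfl⟩⟩ : ↥(P.map j))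
      rw [hψv] at h1
      have h2 := hg x
      show j (g' * x * g'⁻¹) = j (φ x)
      rw [h2]
      simpa [conjHom] using h1
    · ext y
      constructor
      · rintro ⟨x, hx, rfl⟩
        have := hval2 x.1 hx
        exact this
      · intro hy
        have hy' : j y ∈ R := hy
        rw [← hmap] at hy'
        obtain ⟨r, hr, hrv⟩ := hy'
        rw [hψv] at hrv
        have hrT : (r : G) ∈ H := hTH (hRT hr)
        obtain ⟨a, ha⟩ := hHj _ hrT
        have h2 : (r : G) = j (g'⁻¹ * y * g') := by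
          have : j y = j g' * r * (j g')⁻¹ := hrv.symm
          rw [map_mul, map_mul, this, map_inv]
          group
        have h3 : g'⁻¹ * y * g' ∈ R.comap j := by
          show j _ ∈ R
          rw [← h2]
          exact hr
        refine ⟨⟨g'⁻¹ * y * g', (le_sup_right : R.comap j ≤ P ⊔ R.comap j) h3⟩, h3, ?_⟩
        show g' * (g'⁻¹ * y * g') * g'⁻¹ = y
        group
  · obtain ⟨φ, ⟨hPT, hφT, g, hg⟩, rfl⟩ := hQ'
    intro c hc
    have hrange : (conjHom R (j g)).range = (φ.range).map j := by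
      ext y
      constructor
      · rintro ⟨⟨r, hr⟩, rfl⟩
        obtain ⟨a, rfl⟩ := hHj r (hTH (hRT hr))
        refine ⟨φ ⟨a, hr⟩, ⟨_, rfl⟩, ?_⟩
        rw [hg]
        simp [conjHom]
      · rintro ⟨_, ⟨a, rfl⟩, rfl⟩
        refine ⟨⟨j a, a.2⟩, ?_⟩
        rw [hg]
        simp [conjHom]
    have hmem : conjHom R (j g) ∈ (fusionSystemOfSubgroup H T hTH).Hom R := by
      refine ⟨hRT, ?_, j g, hjH g, fun x => rfl⟩
      rintro ⟨r, hr⟩
      obtain ⟨a, rfl⟩ := hHj r (hTH (hRT hr))
      have h1 := hφT ⟨a, hr⟩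
      rw [hg] at h1
      have h2 : j (g * a * g⁻¹) ∈ T := h1
      simpa [conjHom] using h2
    have h1 := hRc.2 _ ⟨_, hmem, rfl⟩
    have h2 : j c ∈ centralizerIn T (conjHom R (j g)).range := by
      refine ⟨hc.1, ?_⟩
      rw [hrange]
      show j c ∈ Subgroup.centralizer _
      rw [Subgroup.mem_centralizer_iff]
      rintro _ ⟨y, hy, rfl⟩
      have := hc.2
      have h3 : c ∈ Subgroup.centralizer ((φ.range : Subgroup A) : Set A) := hc.2
      rw [Subgroup.mem_centralizer_iff] at h3
      rw [← map_mul, ← map_mul, h3 y hy]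
    have h3 := h1 h2
    rw [hrange] at h3
    obtain ⟨y, hy, hyc⟩ := h3
    rwa [← hj hyc]

/-- The normal step. -/
theorem isConstrained_comap_of_normal [Finite G] [Fact p.Prime] (S : Sylow p G) (hF : (groupFusionSystem (S : Subgroup G)).IsConstrained p)
    (j : A →* G) (hj : Function.Injective j) (hH : j.range.Normal)
    (hsat : (groupFusionSystem ((S : Subgroup G).comap j)).IsSaturated p) :
    (groupFusionSystem ((S : Subgroup G).comap j)).IsConstrained p := by
  have hE := isNormalIn_of_normal (p := p) (S := S) (H := j.range)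
  have hc := Cfsg.Agent.Lib.Fusion2.isConstrained_of_isNormalIn S.isPGroup' hF _ hE
  have e : ((S : Subgroup G) ⊓ j.range).comap j = (S : Subgroup G).comap j := by
    ext x
    constructor
    · exact fun h => h.1
    · exact fun h => ⟨h, ⟨x, rfl⟩⟩
  have hsat' : (groupFusionSystem (((S : Subgroup G) ⊓ j.range).comap j)).IsSaturated p := by
    rw [e]
    exact hsat
  have := isConstrained_comap j hj inf_le_right rfl hsat' hc
  rwa [e] at this

/-- **Fusion systems of subnormal subgroups of a group with a constrained fusion system are constrained.** -/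
theorem isConstrained_of_isSubnormal [Finite G] [Fact p.Prime] (S : Sylow p G) (hF : (groupFusionSystem (S : Subgroup G)).IsConstrained p)
    (H : Subgroup G) (hH : H.IsSubnormal) : (groupFusionSystem ((S : Subgroup G).subgroupOf H)).IsConstrained p := by
  have hsat : ∀ H : Subgroup G, H.IsSubnormal → (groupFusionSystem ((S : Subgroup G).subgroupOf H)).IsSaturated p := by
    intro H hH
    obtain ⟨Q, hQ⟩ := Cfsg.Agent.Lib.Basic.sylow_inf_of_isSubnormal p H hH S
    have := isSaturated_gfs Q
    rwa [hQ] at this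
  induction hH with
  | top =>
    refine isConstrained_comap_of_normal S hF (⊤ : Subgroup G).subtype Subtype.val_injective ?_ (hsat _ Subgroup.IsSubnormal.top)
    rw [Subgroup.range_subtype]
    infer_instance
  | step H K hle hK hN ih =>
    obtain ⟨Q, hQ⟩ := Cfsg.Agent.Lib.Basic.sylow_inf_of_isSubnormal p K hK S
    have hF' : (groupFusionSystem (Q : Subgroup K)).IsConstrained p := by
      rw [hQ]
      exact ih
    have hr : (Subgroup.inclusion hle).range = H.subgroupOf K := by
      ext x
      constructor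
      · rintro ⟨y, rfl⟩
        exact y.2
      · intro hx
        exact ⟨⟨x, hx⟩, rfl⟩
    have e : (Q : Subgroup K).comap (Subgroup.inclusion hle) = (S : Subgroup G).subgroupOf H := by
      rw [hQ]
      rfl
    have h1 := isConstrained_comap_of_normal Q hF' (Subgroup.inclusion hle) (Subgroup.inclusion_injective hle) (by rw [hr]; exact hN)
      (by rw [e]; exact hsat H (Subgroup.IsSubnormal.step H K hle hK hN))
    rwa [e] at h1

end Cfsg.Agent.Lib.Fusion
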