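import Cfsg.Agent.Lib.Fusion.Solv

/-!
# Solvable fusion systems: normal subsystems and factor systems
-/

set_option autoImplicit false
set_option linter.unusedSectionVars false
set_option linter.style.haveILetI false

namespace Cfsg.Agent.Lib.Fusion.Solv

open Cfsg Cfsg.FusionSystem Cfsg.Agent.Lib.Fusion
open scoped commutatorElement

variable {Ω : Type*} [Group Ω] {S : Subgroup Ω} {F : FusionSystem S}
variable {T : Subgroup Ω} {E : FusionSystem T}

/-- Restricting chains to a subsystem on a strongly closed subgroup. -/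
theorem schain_inf (hEF : E.IsSubsystemOf F) (hT : F.StronglyClosed T) {X : Subgroup Ω} (hX : SChain F X) :
    SChain E (X ⊓ T) := by
  induction hX with
  | top =>
    rw [inf_eq_right.2 hT.1]
    exact SChain.top
  | @step R R' hR hle hc _ ih =>
    refine SChain.step ⟨inf_le_right, fun P hP φ hφ x => ⟨?_, val_mem hφ x⟩⟩ (inf_le_inf_right _ hle) ?_ ih
    · exact hR.2 P (hP.trans inf_le_left) φ (hEF P hφ) x
    · rw [Subgroup.commutator_le]
      intro a ha b hb
      exact ⟨hc (Subgroup.commutator_mem_commutator ha.1 hb.1),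
        Subgroup.commutator_le_self _ (Subgroup.commutator_mem_commutator ha.2 hb.2)⟩

variable {Ω' : Type*} [Group Ω'] {S' : Subgroup Ω'}

/-- Chains have images in factor systems. -/
theorem schain_image {S₀ : Subgroup Ω} {D : FusionSystem S'} {θ : S →* Ω'} (hD : F.IsFactorSystem S₀ θ D) {X : Subgroup Ω}
    (hX : SChain F X) : SChain D (imageAlong θ X) := by
  induction hX with
  | top =>
    have : imageAlong θ S = S' := by
      rw [← hD.2.2.1, imageAlong, Subgroup.subgroupOf_self, MonoidHom.range_eq_map]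
    rw [this]
    exact SChain.top
  | @step R R' hR hle hc _ ih =>
    refine SChain.step (stronglyClosed_imageAlong hD hR) ?_ ?_ ih
    · intro y hy
      obtain ⟨x, hxS, hx, rfl⟩ := mem_imageAlong.1 hy
      exact mem_imageAlong.2 ⟨x, hxS, hle hx, rfl⟩
    · rw [Subgroup.commutator_le]
      intro a ha b hb
      obtain ⟨x, hxS, hx, rfl⟩ := mem_imageAlong.1 ha
      obtain ⟨y, hyS, hy, rfl⟩ := mem_imageAlong.1 hb
      rw [← map_commutatorElement]
      exact mem_imageAlong.2 ⟨_, _, hc (Subgroup.commutator_mem_commutator hx hy), rfl⟩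

/-- Chains have preimages along morphisms. -/
theorem schain_preimage {D : FusionSystem S'} {θ : S →* Ω'} (hm : F.IsMorphism D θ) {Y : Subgroup Ω'}
    (hY : SChain D Y) : SChain F (preimageAlong θ Y) := by
  induction hY with
  | top =>
    have : preimageAlong θ S' = S := by
      apply le_antisymm (preimageAlong_le θ S')
      intro x hx
      exact mem_preimageAlong.2 ⟨hx, hm.1 ⟨x, hx⟩⟩
    rw [this]
    exact SChain.top
  | @step R R' hR hle hc _ ih =>
    refine SChain.step (stronglyClosed_preimageAlong hm hR) ?_ ?_ ih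
    · intro x hx
      obtain ⟨h1, h2⟩ := mem_preimageAlong.1 hx
      exact mem_preimageAlong.2 ⟨h1, hle h2⟩
    · rw [Subgroup.commutator_le]
      intro a ha b hb
      obtain ⟨h1, h2⟩ := mem_preimageAlong.1 ha
      obtain ⟨h3, h4⟩ := mem_preimageAlong.1 hb
      refine mem_preimageAlong.2 ⟨Subgroup.commutator_le_self _ (Subgroup.commutator_mem_commutator h1 h3), ?_⟩
      have : θ ⟨⁅a, b⁆, Subgroup.commutator_le_self _ (Subgroup.commutator_mem_commutator h1 h3)⟩ =
          ⁅θ ⟨a, h1⟩, θ ⟨b, h3⟩⁆ := by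
        rw [← map_commutatorElement]
        rfl
      rw [this]
      exact hc (Subgroup.commutator_mem_commutator h2 h4)

/-- A chain of `E` becomes a chain of `F`, when `E` is invariant in `F`. -/
theorem schain_of_invariant (hinv : E.IsInvariantIn F) (hT : SChain F T) (hE : SChain E ⊥) : SChain F ⊥ := by
  obtain ⟨hEF, hTs, hi, hfr⟩ := hinv
  have key : ∀ X, SChain E X → ∃ Y, F.StronglyClosed Y ∧ Y ≤ X ∧ SChain F Y := by
    intro X hX
    induction hX with
    | top => exact ⟨T, hTs, le_rfl, hT⟩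
    | @step X X' hXs hle hc hX'c ih =>
      obtain ⟨Y', hY's, hY'X', hY'c⟩ := ih
      have hX'T : X' ≤ T := hX'c.stronglyClosed.1
      have hY'T : Y' ≤ T := hY'X'.trans hX'T
      have hY'E : E.StronglyClosed Y' :=
        ⟨hY'T, fun R hR φ hφ x => hY's.2 R hR φ (hEF R hφ) x⟩
      let Y : Subgroup Ω := sInf {Z | E.StronglyClosed Z ∧ ⁅Y', Y'⁆ ≤ Z}
      have hYX : Y ≤ X := sInf_le ⟨hXs, (Subgroup.commutator_mono hY'X' hY'X').trans hc⟩
      have hYY' : Y ≤ Y' := sInf_le ⟨hY'E, Subgroup.commutator_le.2 fun a ha b hb => by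
        rw [commutatorElement_def]
        exact Y'.mul_mem (Y'.mul_mem (Y'.mul_mem ha hb) (Y'.inv_mem ha)) (Y'.inv_mem hb)⟩
      have hYT : Y ≤ T := hYX.trans hXs.1
      have hYE : E.StronglyClosed Y := by
        refine ⟨hYT, fun R hR φ hφ x => ?_⟩
        refine Subgroup.mem_sInf.2 fun Z hZ => ?_
        exact hZ.1.2 R (hR.trans (sInf_le hZ)) φ hφ x
      have hcY : ⁅Y', Y'⁆ ≤ Y := le_sInf fun Z hZ => hZ.2
      -- `Aut_F(T)` preserves `Y`
      have hαY : ∀ α ∈ F.autGroup T, ∀ y (hy : y ∈ T), y ∈ Y → ((α ⟨y, hy⟩ : T) : Ω) ∈ Y := by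
        intro α hα
        let Z : Subgroup Ω := ((Y.subgroupOf T).comap α.toMonoidHom).map T.subtype
        have hmemZ : ∀ y, y ∈ Z ↔ ∃ hy : y ∈ T, ((α ⟨y, hy⟩ : T) : Ω) ∈ Y := by
          intro y
          constructor
          · rintro ⟨t, ht, rfl⟩
            exact ⟨t.2, ht⟩
          · rintro ⟨hy, h⟩
            exact ⟨⟨y, hy⟩, h, rfl⟩
        have hTS : T ≤ S := hTs.1
        have hαφ := (mem_autGroup_iff hTS).1 hα
        have hZs : E.StronglyClosed Z := by
          refine ⟨fun y hy => ((hmemZ y).1 hy).1, fun R hR ψ hψ x => ?_⟩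
          have hRT : R ≤ T := hR.trans fun y hy => ((hmemZ y).1 hy).1
          obtain ⟨χ, hχ, hχv⟩ := hi R hRT ψ hψ α hα
          have hle : (R.subgroupOf T).map (T.subtype.comp α.toMonoidHom) ≤ Y := by
            rintro _ ⟨t, ht, rfl⟩
            exact ((hmemZ t).1 (hR ht)).2
          have hψT : ψ x ∈ T := val_mem hψ x
          have hαx : ((α ⟨x, hRT x.2⟩ : T) : Ω) ∈ (R.subgroupOf T).map (T.subtype.comp α.toMonoidHom) :=
            ⟨⟨x, hRT x.2⟩, x.2, rfl⟩
          have h1 := hYE.2 _ hle χ hχ ⟨_, hαx⟩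
          rw [hχv x hψT hαx] at h1
          exact (hmemZ _).2 ⟨hψT, h1⟩
        have hcZ : ⁅Y', Y'⁆ ≤ Z := by
          rw [Subgroup.commutator_le]
          intro a ha b hb
          have haT := hY'T ha
          have hbT := hY'T hb
          have hcT : ⁅a, b⁆ ∈ T := Subgroup.commutator_le_self _ (Subgroup.commutator_mem_commutator haT hbT)
          refine (hmemZ _).2 ⟨hcT, ?_⟩
          have e : (⟨⁅a, b⁆, hcT⟩ : T) = ⁅(⟨a, haT⟩ : T), (⟨b, hbT⟩ : T)⁆ := rfl
          rw [e, map_commutatorElement]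
          have hα' : ∀ c (hc : c ∈ Y'), ((α ⟨c, hY'T hc⟩ : T) : Ω) ∈ Y' := by
            intro c hc
            have hres := restrict_mem hαφ hY'T
            exact hY's.2 Y' le_rfl _ hres ⟨c, hc⟩
          exact hcY (Subgroup.commutator_mem_commutator (hα' a ha) (hα' b hb))
        intro y hy hyY
        have : Y ≤ Z := sInf_le ⟨hZs, hcZ⟩
        exact ((hmemZ y).1 (this hyY)).2
      have hYF : F.StronglyClosed Y := by
        refine ⟨hYT.trans hTs.1, fun R hR φ hφ x => ?_⟩
        obtain ⟨α, hα, φ₀, hφ₀, hv⟩ := hfr R (hR.trans hYT) φ hφ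
        rw [hv x (val_mem hφ₀ x)]
        exact hαY α hα _ _ (hYE.2 R hR φ₀ hφ₀ x)
      exact ⟨Y, hYF, hYX, SChain.step hYF hYY' hcY hY'c⟩
  obtain ⟨Y, -, hY, hc⟩ := key ⊥ hE
  rwa [le_bot_iff.1 hY] at hc

variable [Finite S] {p : ℕ} [hp : Fact p.Prime]

/-- `F` is solvable iff `E` and `F / E` are solvable. -/
theorem solvable_normal_iff (hS : IsPGroup p S) (hF : F.IsSaturated p) (hE : E.IsNormalIn F p) {D : FusionSystem S'}
    {θ : S →* Ω'} (hD : F.IsFactorSystem T θ D) :
    F.IsSolvableSystem ↔ E.IsSolvableSystem ∧ D.IsSolvableSystem := by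
  have hinv := hE.1.2.2
  have hTs := hinv.2.1
  have hTS := hTs.1
  have hEs := hE.1.1
  haveI : Finite T := finite_of_le hTS
  have hpT : IsPGroup p T := hS.to_le hTS
  have hr := hD.2.2.1
  haveI : Finite S' := by
    rw [← hr]
    exact Finite.of_surjective θ.rangeRestrict θ.rangeRestrict_surjective
  have hpS' : IsPGroup p S' := by
    rw [← hr]
    exact IsPGroup.of_surjective hS θ.rangeRestrict θ.rangeRestrict_surjective
  have hsurj := isSurjectiveMorphism_of_factor hS hF hTs hD
  have hDs := isSaturated_of_surjective hS hF hsurj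
  rw [solvable_iff hS hF, solvable_iff hpT hEs, solvable_iff hpS' hDs]
  constructor
  · intro h
    constructor
    · have := schain_inf hinv.1 hTs h
      rwa [bot_inf_eq] at this
    · have := schain_image hD h
      have e : imageAlong θ ⊥ = ⊥ := by
        simp [imageAlong]
      rwa [e] at this
  · rintro ⟨h1, h2⟩
    have h3 := schain_preimage hsurj.1 h2
    have e : preimageAlong θ ⊥ = T := by
      ext x
      rw [mem_preimageAlong]
      constructor
      · rintro ⟨h, h'⟩
        exact (hD.2.1 ⟨x, h⟩).1 (Subgroup.mem_bot.1 h')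
      · intro hx
        exact ⟨hTS hx, Subgroup.mem_bot.2 ((hD.2.1 ⟨x, hTS hx⟩).2 hx)⟩
    rw [e] at h3
    exact schain_of_invariant hinv h3 h1

end Cfsg.Agent.Lib.Fusion.Solv
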